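import Cfsg.Agent.QrcE.Basic
import Cfsg.Agent.ZN.ChoiceBase

/-!
# S1824: passing from `U = ⟨V^X⟩` to a conjugate of `V`

`pass` : `B ≤ O₂(X)` elementary abelian, quadratic on `U = ⟨V^X⟩`, `[U, B] ≠ 1`,
`|U : C_U(B)| ≤ |B : C_B(U)|²`; then `q(T, V) ≤ 2`.
-/

set_option autoImplicit false

namespace Cfsg.Agent.QrcE

open Subgroup Cfsg Cfsg.Agent.MinSimple.MinParabolic Cfsg.Agent.PLocal.ThompsonJ
open Cfsg.Agent.ZN.ChoiceBase (cj mem_cj cj_mono cj_le_iff cj_inv_cj cj_cj_inv card_cj cj_inf cj_centralizer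
  isElementaryAbelian_cj)
open scoped commutatorElement

universe u

section

variable {X : Type u} [Group X]

theorem cj_commutator (g : X) (A B : Subgroup X) : cj g ⁅A, B⁆ = ⁅cj g A, cj g B⁆ := map_commutator _ _ _

theorem card_inf_mul_relIndex [Finite X] (A C : Subgroup X) :
    Nat.card ↥(A ⊓ C) * C.relIndex A = Nat.card A := by
  have h := relIndex_mul_relIndex (⊥ : Subgroup X) (A ⊓ C) A bot_le inf_le_left
  rwa [relIndex_bot_left, relIndex_bot_left, inf_relIndex_left] at h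

/-- `q ≤ 2` from orders -/
theorem quadParamLE_of_card [Finite X] {T V B : Subgroup X} (hBT : B ≤ T)
    (hB2 : ∀ b ∈ B, b ^ 2 ∈ centralizer (V : Set X))
    (hBc : ∀ b ∈ B, ∀ b' ∈ B, b * b' * b⁻¹ * b'⁻¹ ∈ centralizer (V : Set X))
    (ne : ¬ B ≤ centralizer (V : Set X)) (quad : ⁅⁅V, B⁆, B⁆ = ⊥)
    (h : Nat.card ↥(B ⊓ centralizer (V : Set X)) ^ 2 * Nat.card V ≤
      Nat.card B ^ 2 * Nat.card ↥(V ⊓ centralizer (B : Set X))) : QuadParamLE T V 2 := by
  refine ⟨B, hBT, ⟨ne, hB2, hBc⟩, quad, ?_⟩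
  have h1 := card_inf_mul_relIndex B (centralizer (V : Set X))
  have h2 := card_inf_mul_relIndex V (V ⊓ centralizer (B : Set X))
  rw [← inf_assoc, inf_idem] at h2
  have p1 : 0 < Nat.card ↥(B ⊓ centralizer (V : Set X)) := Nat.card_pos
  have p2 : 0 < Nat.card ↥(V ⊓ centralizer (B : Set X)) := Nat.card_pos
  set b := Nat.card ↥(B ⊓ centralizer (V : Set X))
  set c := Nat.card ↥(V ⊓ centralizer (B : Set X))
  rw [← h1, ← h2] at h
  refine Nat.le_of_mul_le_mul_left (c := b ^ 2 * c) ?_ (by positivity)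
  calc b ^ 2 * c * (V ⊓ centralizer (B : Set X)).relIndex V
      = b ^ 2 * (c * (V ⊓ centralizer (B : Set X)).relIndex V) := by ring
    _ ≤ (b * (centralizer (V : Set X)).relIndex B) ^ 2 * c := h
    _ = _ := by ring

theorem quadParamLE_of_elem [Finite X] {T V B : Subgroup X} (hBT : B ≤ T) (hB : IsElementaryAbelian 2 B)
    (ne : ¬ B ≤ centralizer (V : Set X)) (quad : ⁅⁅V, B⁆, B⁆ = ⊥)
    (h : Nat.card ↥(B ⊓ centralizer (V : Set X)) ^ 2 * Nat.card V ≤
      Nat.card B ^ 2 * Nat.card ↥(V ⊓ centralizer (B : Set X))) : QuadParamLE T V 2 := by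
  refine quadParamLE_of_card hBT (fun b hb => ?_) (fun b hb b' hb' => ?_) ne quad h
  · rw [hB.2 b hb]; exact one_mem _
  · have : b * b' * b⁻¹ * b'⁻¹ = 1 := by
      rw [(isElementaryAbelian_iff.1 hB).1 b hb b' hb']; group
    rw [this]; exact one_mem _

/-- `U = ⟨V^X⟩ ` is centralized by `B` if all conjugates of `V` are -/
theorem normalClosure_le_centralizer {V B : Subgroup X}
    (h : ∀ g : X, B ≤ centralizer ((cj g V : Subgroup X) : Set X)) :
    B ≤ centralizer ((normalClosure (V : Set X) : Subgroup X) : Set X) := by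
  rw [le_centralizer_iff]
  rw [normalClosure, closure_le]
  intro y hy
  obtain ⟨v, hv, hvy⟩ := Group.mem_conjugatesOfSet_iff.1 hy
  obtain ⟨g, rfl⟩ := isConj_iff.1 hvy
  have h1 := (le_centralizer_iff.1 (h g)) ⟨v, hv, rfl⟩
  exact h1

theorem cj_le_normalClosure (V : Subgroup X) (g : X) : cj g V ≤ normalClosure (V : Set X) := by
  rintro _ ⟨v, hv, rfl⟩
  exact (normalClosure_normal (s := (V : Set X))).conj_mem v (subset_normalClosure hv) g

/-- `C_U(B) C_W ≤ ...` -/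
theorem pass_aux [Finite X] {U W C : Subgroup X} (hWU : W ≤ U) (hf : Nat.card ↥(C ⊓ centralizer (W : Set X)) ^ 2 *
      Nat.card ↥(U ⊓ centralizer ((C ⊓ centralizer (W : Set X) : Subgroup X) : Set X)) ≤
      Nat.card C ^ 2 * Nat.card ↥(U ⊓ centralizer (C : Set X))) :
    Nat.card ↥(C ⊓ centralizer (W : Set X)) ^ 2 * Nat.card W ≤
      Nat.card C ^ 2 * Nat.card ↥(W ⊓ centralizer (C : Set X)) := by
  set D : Subgroup X := C ⊓ centralizer (W : Set X) with hD
  have h1 : Nat.card W * Nat.card ↥(U ⊓ centralizer (C : Set X)) ≤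
      Nat.card ↥(W ⊓ (U ⊓ centralizer (C : Set X))) * Nat.card ↥(U ⊓ centralizer (D : Set X)) :=
    Cfsg.Agent.PLocal.Timmesfeld.card_mul_card_le
      (le_inf hWU (le_centralizer_iff.1 inf_le_right))
      (inf_le_inf_left _ (centralizer_le (SetLike.coe_subset_coe.2 inf_le_left)))
  rw [← inf_assoc, inf_eq_left.2 hWU] at h1
  have p1 : 0 < Nat.card ↥(U ⊓ centralizer (C : Set X)) := Nat.card_pos
  refine Nat.le_of_mul_le_mul_right ?_ p1
  calc Nat.card D ^ 2 * Nat.card W * Nat.card ↥(U ⊓ centralizer (C : Set X))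
      = Nat.card D ^ 2 * (Nat.card W * Nat.card ↥(U ⊓ centralizer (C : Set X))) := by ring
    _ ≤ Nat.card D ^ 2 * (Nat.card ↥(W ⊓ centralizer (C : Set X)) * Nat.card ↥(U ⊓ centralizer (D : Set X))) :=
        Nat.mul_le_mul_left _ h1
    _ = (Nat.card D ^ 2 * Nat.card ↥(U ⊓ centralizer (D : Set X))) * Nat.card ↥(W ⊓ centralizer (C : Set X)) := by
        ring
    _ ≤ (Nat.card C ^ 2 * Nat.card ↥(U ⊓ centralizer (C : Set X))) * Nat.card ↥(W ⊓ centralizer (C : Set X)) :=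
        Nat.mul_le_mul_right _ hf
    _ = _ := by ring

/-- **Lemma P** -/
theorem pass [Finite X] (T : Sylow 2 X) {V B : Subgroup X} (hBQ : B ≤ pCore 2 X) (hB : IsElementaryAbelian 2 B)
    (ne : ¬ B ≤ centralizer ((normalClosure (V : Set X) : Subgroup X) : Set X))
    (quad : ⁅⁅normalClosure (V : Set X), B⁆, B⁆ = ⊥)
    (h : Nat.card ↥(B ⊓ centralizer ((normalClosure (V : Set X) : Subgroup X) : Set X)) ^ 2 *
        Nat.card (normalClosure (V : Set X)) ≤
      Nat.card B ^ 2 * Nat.card ↥(normalClosure (V : Set X) ⊓ centralizer (B : Set X))) :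
    QuadParamLE (T : Subgroup X) V 2 := by
  set U : Subgroup X := normalClosure (V : Set X) with hU
  let f : Subgroup X → ℕ := fun C => Nat.card C ^ 2 * Nat.card ↥(U ⊓ centralizer (C : Set X))
  obtain ⟨C₀, hC₀, hmax⟩ := Set.exists_max_image {C : Subgroup X | C ≤ B} f (Set.toFinite _) ⟨B, le_refl B⟩
  have key : ∃ C : Subgroup X, C ≤ B ∧ ¬ C ≤ centralizer (U : Set X) ∧ ∀ D : Subgroup X, D ≤ B → f D ≤ f C := by
    by_cases hc : C₀ ≤ centralizer (U : Set X)
    · refine ⟨B, le_rfl, ne, fun D hD => (hmax D hD).trans ?_⟩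
      have h1 : Nat.card C₀ ≤ Nat.card ↥(B ⊓ centralizer (U : Set X)) := card_le_of_le (le_inf hC₀ hc)
      have h2 : Nat.card ↥(U ⊓ centralizer (C₀ : Set X)) ≤ Nat.card U := card_le_of_le inf_le_left
      exact (Nat.mul_le_mul (Nat.pow_le_pow_left h1 2) h2).trans h
    · exact ⟨C₀, hC₀, hc, hmax⟩
  obtain ⟨C, hCB, hCne, hC⟩ := key
  obtain ⟨g, hg⟩ : ∃ g : X, ¬ C ≤ centralizer ((cj g V : Subgroup X) : Set X) := by
    by_contra hcon
    push Not at hcon
    exact hCne (normalClosure_le_centralizer hcon)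
  have hWU : cj g V ≤ U := cj_le_normalClosure V g
  have h1 := pass_aux hWU (hC _ (inf_le_left.trans hCB))
  have hq : ⁅⁅cj g V, C⁆, C⁆ = ⊥ := by
    refine le_bot_iff.1 ?_
    rw [← quad]
    exact commutator_mono (commutator_mono hWU hCB) hCB
  have e1 : cj g⁻¹ (centralizer ((cj g V : Subgroup X) : Set X)) = centralizer (V : Set X) := by
    rw [cj_centralizer, cj_inv_cj]
  have e2 : cj g⁻¹ (centralizer (C : Set X)) = centralizer ((cj g⁻¹ C : Subgroup X) : Set X) := cj_centralizer _ _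
  refine quadParamLE_of_elem (B := cj g⁻¹ C) ?_ (isElementaryAbelian_cj _ (isElementaryAbelian_mono hB hCB)) ?_ ?_ ?_
  · refine le_trans ?_ (pCore_le T)
    rintro _ ⟨c, hc, rfl⟩
    exact pCore_normal.conj_mem c (hBQ (hCB hc)) _
  · intro hcon
    apply hg
    rw [cj_le_iff, inv_inv, cj_centralizer] at hcon
    exact hcon
  · have := congrArg (cj g⁻¹) hq
    rw [cj_commutator, cj_commutator, cj_inv_cj] at this
    rw [this]
    exact Subgroup.map_bot _
  · rw [← e1, ← e2, ← cj_inf, card_cj, card_cj]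
    have e3 : V = cj g⁻¹ (cj g V) := (cj_inv_cj g V).symm
    have e4 : Nat.card V = Nat.card (cj g V) := (card_cj g V).symm
    rw [e4]
    have e5 : Nat.card ↥(V ⊓ cj g⁻¹ (centralizer (C : Set X))) = Nat.card ↥(cj g V ⊓ centralizer (C : Set X)) := by
      conv_lhs => rw [e3]
      rw [← cj_inf, card_cj]
    rw [e5]
    exact h1

end

end Cfsg.Agent.QrcE
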