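import Cfsg.Agent.QrcE.U
import Cfsg.Agent.S0051

/-!
# S1824: `O₂(X) ∩ O²(X) ≤ R`

`R` is normalised by `T`, `[O₂(X), O²(X)] ≤ R` and `T ∩ O²(X) ≤ R O₂(X)`; then `O₂(X) ∩ O²(X) ≤ R` (Gaschütz).
-/

set_option autoImplicit false
set_option linter.unusedVariables false
set_option linter.unusedSectionVars false
set_option linter.style.haveILetI false

namespace Cfsg.Agent.QrcE

open Subgroup Cfsg
open scoped commutatorElement

universe u

variable {X : Type u} [Group X]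

theorem gas_aux [Finite X] (T : Sylow 2 X) {R Q : Subgroup X} [hQn : Q.Normal] (hRT : R ≤ (T : Subgroup X))
    (hQT : Q ≤ (T : Subgroup X)) (h1 : ⁅Q, OO X⁆ = ⊥) (h2 : ⁅R, Q⁆ = ⊥) (h3 : R ⊓ Q = ⊥)
    (h4 : (T : Subgroup X) ⊓ OO X ≤ R ⊔ Q) : Q ⊓ OO X = ⊥ := by
  have hQO : ∀ q ∈ Q, ∀ l ∈ OO X, q * l = l * q := comm_eq_bot_iff.1 h1
  have hRQ : ∀ r ∈ R, ∀ q ∈ Q, r * q = q * r := comm_eq_bot_iff.1 h2
  haveI : (centralizer (Q : Set X)).Normal := normal_centralizer
  set K : Subgroup X := Q ⊓ centralizer (Q : Set X) with hK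
  haveI hKn : K.Normal := inferInstance
  have hKQ : K ≤ Q := inf_le_left
  set G : Subgroup X := OO X ⊔ K with hG
  haveI hGn : G.Normal := inferInstance
  have hKG : K ≤ G := le_sup_right
  have hmemG : ∀ x ∈ G, ∃ l ∈ OO X, ∃ k ∈ K, l * k = x := fun x hx => mem_sup_of_normal_left.1 hx
  haveI : (K.subgroupOf G).Normal := hKn.subgroupOf G
  have hKc : ∀ a ∈ K, ∀ b ∈ K, a * b = b * a := fun a ha b hb => mem_centralizer_iff.1 hb.2 a ha.1
  haveI : IsMulCommutative (K.subgroupOf G) := ⟨⟨fun a b => Subtype.ext (Subtype.ext (hKc _ a.2 _ b.2))⟩⟩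
  have hKp : IsPGroup 2 K := T.isPGroup'.to_le (hKQ.trans hQT)
  have hKU : K.subgroupOf G ≤ (T : Subgroup X).subgroupOf G := fun x hx => hQT (hKQ hx)
  have hcop : (Nat.card (K.subgroupOf G)).Coprime ((T : Subgroup X).subgroupOf G).index := by
    have e1 : Nat.card (K.subgroupOf G) = Nat.card K := Nat.card_congr (subgroupOfEquivOfLe hKG).toEquiv
    obtain ⟨n, hn⟩ := IsPGroup.iff_card.1 hKp
    have e2 : ((T : Subgroup X).subgroupOf G).index = (T : Subgroup X).relIndex G := rfl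
    have e3 : ¬ 2 ∣ (T : Subgroup X).relIndex G := Lib.SylowNormalInf.not_dvd_relIndex T G
    rw [e1, hn, e2]
    exact Nat.Coprime.pow_left n ((Nat.Prime.coprime_iff_not_dvd Nat.prime_two).2 e3)
  have hAU : R.subgroupOf G ≤ (T : Subgroup X).subgroupOf G := fun x hx => hRT hx
  have hAK : R.subgroupOf G ⊓ K.subgroupOf G = ⊥ := by
    rw [Subgroup.eq_bot_iff_forall]
    rintro x ⟨hx1, hx2⟩
    have : (x : X) ∈ R ⊓ Q := ⟨hx1, hKQ hx2⟩
    rw [h3, mem_bot] at this
    exact Subtype.ext this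
  have hKA : K.subgroupOf G ⊔ R.subgroupOf G = (T : Subgroup X).subgroupOf G := by
    refine le_antisymm (sup_le hKU hAU) ?_
    rintro ⟨t, htG⟩ ht
    have ht' : t ∈ (T : Subgroup X) := ht
    obtain ⟨l, hl, k, hk, hlk⟩ := hmemG t htG
    have hl2 : l ∈ (T : Subgroup X) := by
      have : l = t * k⁻¹ := by rw [← hlk]; group
      rw [this]
      exact mul_mem ht' (inv_mem (hQT (hKQ hk)))
    obtain ⟨r, hr, q, hq, hrq⟩ := mem_sup_of_normal_right.1 (h4 ⟨hl2, hl⟩)
    have hqK : q ∈ K := by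
      refine ⟨hq, mem_centralizer_iff.2 fun y hy => ?_⟩
      have e1 : q = r⁻¹ * l := by rw [← hrq]; group
      have e2 : Commute y r := (hRQ r hr y hy).symm
      have e3 : Commute y l := hQO y hy l hl
      have e4 : Commute y q := by rw [e1]; exact e2.inv_right.mul_right e3
      exact e4
    have hrG : r ∈ G := by
      have : r = t * (q * k)⁻¹ := by rw [← hlk, ← hrq]; group
      rw [this]
      exact mul_mem htG (inv_mem (hKG (mul_mem hqK hk)))
    have e : (⟨t, htG⟩ : G) = ⟨r, hrG⟩ * ⟨q * k, hKG (mul_mem hqK hk)⟩ := by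
      apply Subtype.ext
      change t = r * (q * k)
      rw [← hlk, ← hrq]; group
    rw [e]
    exact mul_mem (mem_sup_right (show (⟨r, hrG⟩ : G) ∈ R.subgroupOf G from hr))
      (mem_sup_left (show (⟨q * k, _⟩ : G) ∈ K.subgroupOf G from mul_mem hqK hk))
  obtain ⟨H, hH⟩ := S0051.result (K.subgroupOf G) ((T : Subgroup X).subgroupOf G) hKU hcop (R.subgroupOf G) hAU hAK hKA
  -- `O²(X) ≤ H`
  have hOH : OO X ≤ H.map G.subtype := by
    refine OO_le fun x hx => ?_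
    have hxG : x ∈ G := mem_sup_left (mem_OO hx)
    have h5 : (⟨x, hxG⟩ : G) ∈ K.subgroupOf G ⊔ H := by rw [hH.sup_eq_top]; trivial
    obtain ⟨k, hk, y, hy, hky⟩ := mem_sup_of_normal_left.1 h5
    have hkK : (k : X) ∈ K := hk
    have hcomm : Commute k y := by
      apply Subtype.ext
      change (k : X) * y = y * k
      obtain ⟨l, hl, k', hk', e⟩ := hmemG (y : X) y.2
      rw [← e, ← mul_assoc, hQO k (hKQ hkK) l hl, mul_assoc, hKc k hkK k' hk', mul_assoc]
    obtain ⟨n, hn⟩ := hKp ⟨k, hkK⟩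
    have hn' : k ^ 2 ^ n = 1 := by
      apply Subtype.ext
      have := congrArg Subtype.val hn
      simpa using this
    have h6 : (⟨x, hxG⟩ : G) ^ 2 ^ n ∈ H := by
      rw [← hky, hcomm.mul_pow, hn', one_mul]
      exact pow_mem hy _
    have h7 : Odd (orderOf (⟨x, hxG⟩ : G)) := by rwa [orderOf_mk]
    exact ⟨_, mem_of_odd h7 h6, rfl⟩
  rw [Subgroup.eq_bot_iff_forall]
  rintro z ⟨hzQ, hzO⟩
  have hzK : z ∈ K := ⟨hzQ, mem_centralizer_iff.2 fun y hy => hQO y hy z hzO⟩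
  obtain ⟨y, hy, hyz⟩ := hOH hzO
  have h5 : y ∈ K.subgroupOf G ⊓ H := by
    refine mem_inf.2 ⟨?_, hy⟩
    rw [← hyz] at hzK
    exact hzK
  rw [hH.disjoint.eq_bot, mem_bot] at h5
  rw [← hyz, h5]
  rfl

/-- **the transfer lemma** -/
theorem pCore_inf_OO_le [Finite X] (T : Sylow 2 X) {R : Subgroup X} (hRT : R ≤ (T : Subgroup X))
    (hTR : (T : Subgroup X) ≤ normalizer (R : Set X)) (hQL : ⁅pCore 2 X, OO X⁆ ≤ R)
    (h4 : (T : Subgroup X) ⊓ OO X ≤ R ⊔ pCore 2 X) : pCore 2 X ⊓ OO X ≤ R := by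
  set Q : Subgroup X := pCore 2 X with hQ
  have hQT : Q ≤ (T : Subgroup X) := pCore_le T
  have hQLQ : ⁅Q, OO X⁆ ≤ Q := commutator_le_left _ _
  set N : Subgroup X := R ⊓ Q with hN
  have hNn : N.Normal := by
    rw [← normalizer_eq_top_iff, eq_top_iff, ← OO_sup T]
    refine sup_le ?_ ?_
    · have key : ∀ l ∈ OO X, ∀ y ∈ N, l * y * l⁻¹ ∈ N := by
        intro l hl y hy
        have e : l * y * l⁻¹ = ⁅y, l⁆⁻¹ * y := by rw [commutatorElement_def]; group
        rw [e]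
        have h5 : ⁅y, l⁆ ∈ ⁅Q, OO X⁆ := commutator_mem_commutator hy.2 hl
        exact mul_mem (inv_mem ⟨hQL h5, hQLQ h5⟩) hy
      intro l hl
      rw [mem_normalizer_iff]
      refine fun y => ⟨key l hl y, fun hy => ?_⟩
      have := key l⁻¹ (inv_mem hl) _ hy
      have e : l⁻¹ * (l * y * l⁻¹) * l⁻¹⁻¹ = y := by group
      rwa [e] at this
    · intro t ht
      have h5 := hTR ht
      have h6 : t ∈ normalizer (Q : Set X) := by
        rw [normalizer_eq_top_iff.2 (inferInstance : Q.Normal)]; trivial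
      rw [mem_normalizer_iff_map_conj_eq] at h5 h6 ⊢
      rw [hN, Subgroup.map_inf_eq _ _ _ (MulAut.conj t).injective, h5, h6]
  haveI := hNn
  set π := QuotientGroup.mk' N with hπ
  haveI : (Q.map π).Normal := (inferInstance : Q.Normal).map _ (QuotientGroup.mk'_surjective N)
  have hRQ : ⁅R, Q⁆ ≤ N := by
    rw [commutator_le]
    intro r hr q hq
    have hrT := hRT hr
    have hqT := hQT hq
    refine mem_inf.2 ⟨?_, ?_⟩
    · rw [commutatorElement_def, mul_assoc, mul_assoc]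
      refine mul_mem hr ?_
      rw [← mul_assoc]
      exact (mem_normalizer_iff.1 (hTR hqT) _).1 (inv_mem hr)
    · rw [commutatorElement_def]
      exact mul_mem ((inferInstance : Q.Normal).conj_mem q hq r) (inv_mem hq)
  have hbot : ∀ A : Subgroup X, A ≤ N → A.map π = ⊥ := fun A hA => by
    rw [Subgroup.map_eq_bot_iff, hπ, QuotientGroup.ker_mk']
    exact hA
  have key := gas_aux (sylQ T N) (R := R.map π) (Q := Q.map π) (map_mono hRT) (map_mono hQT)
    (by rw [OO_quo, ← map_commutator]; exact hbot _ (le_inf hQL hQLQ))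
    (by rw [← map_commutator]; exact hbot _ hRQ)
    (by
      rw [Subgroup.eq_bot_iff_forall]
      rintro y ⟨⟨r, hr, rfl⟩, q, hq, hqr⟩
      have h5 : r⁻¹ * q ∈ N := QuotientGroup.eq.1 hqr.symm
      have h6 : q ∈ R := by
        have : q = r * (r⁻¹ * q) := by group
        rw [this]
        exact mul_mem hr h5.1
      rw [← hqr]
      exact (QuotientGroup.eq_one_iff q).2 ⟨h6, hq⟩)
    (by
      rintro y ⟨⟨t, ht, rfl⟩, hy⟩
      rw [OO_quo] at hy
      obtain ⟨l, hl, hlt⟩ := hy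
      have h5 : t⁻¹ * l ∈ N := QuotientGroup.eq.1 hlt.symm
      have h6 : l ∈ (T : Subgroup X) := by
        have : l = t * (t⁻¹ * l) := by group
        rw [this]
        exact mul_mem ht (hRT h5.1)
      rw [← hlt, ← Subgroup.map_sup]
      exact ⟨l, h4 ⟨h6, hl⟩, rfl⟩)
  rintro z ⟨hzQ, hzO⟩
  have h5 : π z ∈ Q.map π ⊓ OO (X ⧸ N) := by
    refine ⟨⟨z, hzQ, rfl⟩, ?_⟩
    rw [OO_quo]
    exact ⟨z, hzO, rfl⟩
  rw [key, mem_bot] at h5
  exact ((QuotientGroup.eq_one_iff z).1 h5).1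

/-- `T ∩ C K = (T ∩ C) (T ∩ K)` -/
theorem sylow_prod [Finite X] (T : Sylow 2 X) {M C K : Subgroup X} [K.Normal] (hTM : (T : Subgroup X) ≤ M)
    (hCM : C ≤ M) (hC : M ≤ normalizer (C : Set X)) :
    (T : Subgroup X) ⊓ (C ⊔ K) ≤ ((T : Subgroup X) ⊓ C) ⊔ ((T : Subgroup X) ⊓ K) := by
  set π := QuotientGroup.mk' K with hπ
  have h1 : ¬ 2 ∣ ((T : Subgroup X) ⊓ C).relIndex C := by
    haveI : (C.subgroupOf M).Normal := normal_subgroupOf_of_le_normalizer hC
    have h2 := Lib.SylowNormalInf.not_dvd_relIndex (T.subtype hTM) (C.subgroupOf M)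
    have h3 : ((T.subtype hTM : Sylow 2 M) : Subgroup M) = (T : Subgroup X).subgroupOf M := rfl
    rwa [h3, relIndex_subgroupOf hCM, ← inf_relIndex_right] at h2
  have h2 : ((T : Subgroup X) ⊓ C).map π = (T : Subgroup X).map π ⊓ C.map π := by
    have h3 : ((T : Subgroup X) ⊓ C).map π ≤ (T : Subgroup X).map π ⊓ C.map π := map_inf_le _ _ _
    refine le_antisymm h3 ?_
    have h4 : (((T : Subgroup X) ⊓ C).map π).relIndex ((T : Subgroup X).map π ⊓ C.map π) *
        ((T : Subgroup X).map π ⊓ C.map π).relIndex (C.map π) = (((T : Subgroup X) ⊓ C).map π).relIndex (C.map π) :=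
      relIndex_mul_relIndex _ _ _ h3 inf_le_right
    have h5 : (((T : Subgroup X) ⊓ C).map π).relIndex (C.map π) ∣ ((T : Subgroup X) ⊓ C).relIndex C := by
      rw [← relIndex_comap, comap_map_eq]
      exact relIndex_dvd_of_le_left _ le_sup_left
    have h6 : IsPGroup 2 ↥((T : Subgroup X).map π ⊓ C.map π) := (T.isPGroup'.map π).to_le inf_le_left
    obtain ⟨n, hn⟩ := IsPGroup.iff_card.1 h6
    have h7 : (((T : Subgroup X) ⊓ C).map π).relIndex ((T : Subgroup X).map π ⊓ C.map π) ∣ 2 ^ n := by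
      rw [← hn]; exact relIndex_dvd_card _ _
    obtain ⟨j, -, hj⟩ := (Nat.dvd_prime_pow Nat.prime_two).1 h7
    have h8 : j = 0 := by
      by_contra h0
      exact h1 (((dvd_pow_self 2 h0).trans (hj ▸ Dvd.intro _ h4)).trans h5)
    rw [h8, pow_zero] at hj
    exact relIndex_eq_one.1 hj
  rintro t ⟨ht, htC⟩
  obtain ⟨c, hc, k, hk, hck⟩ := mem_sup_of_normal_right.1 htC
  have h3 : π t ∈ (T : Subgroup X).map π ⊓ C.map π := by
    refine ⟨⟨t, ht, rfl⟩, c, hc, ?_⟩
    rw [← hck, map_mul, (QuotientGroup.eq_one_iff k).2 hk |> fun e => (show π k = 1 from e), mul_one]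
  rw [← h2] at h3
  obtain ⟨s, hs, hst⟩ := h3
  have h4 : s⁻¹ * t ∈ K := QuotientGroup.eq.1 hst
  have e : t = s * (s⁻¹ * t) := by group
  rw [e]
  have h5 : s⁻¹ * t ∈ (T : Subgroup X) := mul_mem (inv_mem (mem_inf.1 hs).1) ht
  exact mul_mem (mem_sup_left hs) (mem_sup_right (mem_inf.2 ⟨h5, h4⟩))

end Cfsg.Agent.QrcE
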