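import Cfsg.Agent.QrcE.COne
import Cfsg.Agent.QrcE.Gas

/-!
# S1824, case (e): `T ∩ O²(X) ≤ C_T(V)`

`V ≤ O₂(X)`, `U = ⟨V^X⟩` elementary abelian, `V` not normal in `X`, `q(T, V) > 2`, `J(T) ≤ C(V)`, `J(T) ≰ O₂(X)`,
`C` a subgroup normalised by `M` with `T ∩ C = C_T(V)`.  Then `T ∩ O²(X) ≤ C_T(V)`.
-/

set_option autoImplicit false
set_option linter.unusedVariables false
set_option linter.unusedSectionVars false
set_option linter.style.haveILetI false

namespace Cfsg.Agent.QrcE

open Subgroup Cfsg Cfsg.Agent.MinSimple.MinParabolic Cfsg.Agent.Omega.FFBr Cfsg.Agent.PLocal.ThompsonJ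
open Cfsg.Agent.ZN.ChoiceBase (AA cj cj_inf cj_centralizer mem_normalizer_iff_cj)
open scoped commutatorElement

universe u

variable {X : Type u} [Group X]

/-- **THEOREM E** -/
theorem Sit.inf_OO_le [Finite X] (hFF : AStmt.{u}) {T : Sylow 2 X} {M V : Subgroup X} (h : Sit T M V)
    (hJ : ∀ A ∈ AA (T : Subgroup X), A ≤ centralizer (V : Set X))
    (hJ2 : ∃ A ∈ AA (T : Subgroup X), ¬ A ≤ pCore 2 X)
    {C : Subgroup X} (hCM : C ≤ M) (hC : M ≤ normalizer (C : Set X))
    (hTC : (T : Subgroup X) ⊓ C = (T : Subgroup X) ⊓ centralizer (V : Set X)) :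
    (T : Subgroup X) ⊓ OO X ≤ centralizer (V : Set X) := by
  obtain ⟨A₀, hA₀, hA₀Q⟩ := hJ2
  set U : Subgroup X := normalClosure (V : Set X) with hU
  haveI hUn : U.Normal := normalClosure_normal
  set W : Subgroup X := ⁅U, OO X⁆ with hW
  haveI hWn : W.Normal := commutator_normal U (OO X)
  have hWU : W ≤ U := commutator_le_left U (OO X)
  have hVU : V ≤ U := subset_normalClosure
  have hWW : ⁅W, OO X⁆ = W := comm_comm_eq h.U_isPGroup
  obtain ⟨D, hDn, hD⟩ := exists_chief (isElementaryAbelian_mono h.Uel hWU) hWW h.comm_ne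
  haveI := hDn
  have hDL := h.comm_D hFF hA₀ hA₀Q hD
  have hB := h.comm_B hD hDL
  have hWQ := h.comm_WQ hD hDL
  obtain ⟨A, hAA₀, hAQ, hbest, -⟩ := h.exists_best hA₀ hA₀Q
  have hAe := isElementaryAbelian_mono hA₀.1 hAA₀
  have hAT : A ≤ (T : Subgroup X) := hAA₀.trans hA₀.2.1
  have hAC : A ≤ C := by
    have h1 : A ≤ (T : Subgroup X) ⊓ C := by
      rw [hTC]
      exact le_inf hAT (hAA₀.trans (hJ A₀ hA₀))
    exact h1.trans inf_le_right
  -- `A` is an offender on `W / D`
  have hle : (cW D W (A : Set X)).relIndex W ≤ (pCore 2 X).relIndex A := by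
    set A1 : Subgroup X := A ⊓ pCore 2 X with hA1
    have hfin : ∀ P Q : Subgroup X, P.relIndex Q ≠ 0 := fun P Q => by
      rw [relIndex]; exact index_ne_zero_of_finite
    have h1 : (cW D W (A : Set X)).relIndex W ≤ (W ⊓ centralizer (A : Set X)).relIndex W :=
      relIndex_le_of_le_left (inf_centralizer_le_cW D W A) (hfin _ _)
    rw [inf_relIndex_left] at h1
    have hWA1 : W ≤ U ⊓ centralizer (A1 : Set X) := by
      refine le_inf hWU ?_
      rw [commutator_eq_bot_iff_le_centralizer] at hWQ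
      exact hWQ.trans (centralizer_le (SetLike.coe_subset_coe.2 inf_le_right))
    have h2 : (centralizer (A : Set X)).relIndex W ≤ (centralizer (A : Set X)).relIndex (U ⊓ centralizer (A1 : Set X)) :=
      relIndex_le_of_le_right hWA1 (hfin _ _)
    refine h1.trans (h2.trans ?_)
    have h3 := card_inf_mul_relIndex (U ⊓ centralizer (A1 : Set X)) (centralizer (A : Set X))
    have h4 : U ⊓ centralizer (A1 : Set X) ⊓ centralizer (A : Set X) = U ⊓ centralizer (A : Set X) := by
      rw [inf_assoc]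
      congr 1
      exact inf_eq_right.2 (centralizer_le (SetLike.coe_subset_coe.2 inf_le_left))
    rw [h4] at h3
    have h5 := card_inf_mul_relIndex A (pCore 2 X)
    have h6 := hbest A1 inf_le_left
    rw [← h3, ← h5] at h6
    have p1 : 0 < Nat.card A1 := Nat.card_pos
    have p2 : 0 < Nat.card ↥(U ⊓ centralizer (A : Set X)) := Nat.card_pos
    refine Nat.le_of_mul_le_mul_left (c := Nat.card A1 * Nat.card ↥(U ⊓ centralizer (A : Set X))) ?_
      (Nat.mul_pos p1 p2)
    calc Nat.card A1 * Nat.card ↥(U ⊓ centralizer (A : Set X)) *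
          (centralizer (A : Set X)).relIndex (U ⊓ centralizer (A1 : Set X))
        = Nat.card A1 * (Nat.card ↥(U ⊓ centralizer (A : Set X)) *
          (centralizer (A : Set X)).relIndex (U ⊓ centralizer (A1 : Set X))) := by ring
      _ ≤ Nat.card ↥(A ⊓ pCore 2 X) * (pCore 2 X).relIndex A * Nat.card ↥(U ⊓ centralizer (A : Set X)) := h6
      _ = _ := by rw [hA1]; ring
  have hlem := lemU_sec hFF h.min hD hAT hAe hAQ hle hC hAC
  letI := secAct D W
  set K : Subgroup X := ker X (sec D W) with hK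
  have hTK : (T : Subgroup X) ⊓ K = pCore 2 X := hD.irrMod.inf_ker h.min
  have hTM : (T : Subgroup X) ≤ M := le_sup_right.trans (hD.irrMod.ker_sup_le h.min)
  -- the commutator
  set C4 : Subgroup X := ⁅C, OO X ⊓ M⁆ with hC4
  have hC4C : C4 ≤ C := by
    rw [hC4, commutator_le]
    intro c hc l hl
    rw [commutatorElement_def, mul_assoc, mul_assoc]
    refine mul_mem hc ?_
    rw [← mul_assoc]
    exact (mem_normalizer_iff.1 (hC hl.2) _).1 (inv_mem hc)
  have hC4L : C4 ≤ OO X := by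
    rw [hC4, commutator_le]
    intro c hc l hl
    rw [commutatorElement_def]
    exact mul_mem (OO_normal.conj_mem l hl.1 c) (inv_mem hl.1)
  have hC4n : M ≤ normalizer (C4 : Set X) := by
    intro m hm
    have e1 := mem_normalizer_iff_cj.1 (hC hm)
    have e2 : cj m (OO X ⊓ M) = OO X ⊓ M := by
      rw [cj_inf]
      congr 1
      · exact mem_normalizer_iff_cj.1 ((normalizer_eq_top_iff.2 (OO_normal (X := X))) ▸ mem_top m)
      · exact mem_normalizer_iff_cj.1 (le_normalizer hm)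
    rw [mem_normalizer_iff_cj, hC4, cj_commutator, e1, e2]
  -- `T ∩ L ≤ C4 (Q ∩ L)`
  have key : ∀ t ∈ (T : Subgroup X) ⊓ OO X, ∃ s ∈ (T : Subgroup X) ⊓ C4, ∃ q ∈ pCore 2 X ⊓ OO X, s * q = t := by
    intro t ht
    obtain ⟨c, hc, k, hk, hck⟩ := mem_sup_of_normal_right.1 (hlem ht)
    have hkL : k ∈ OO X := by
      have : k = c⁻¹ * t := by rw [← hck]; group
      rw [this]
      exact mul_mem (inv_mem (hC4L hc)) ht.2
    have h1 : t ∈ (T : Subgroup X) ⊓ (C4 ⊔ (K ⊓ OO X)) := by
      refine ⟨ht.1, ?_⟩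
      rw [← hck]
      exact mul_mem (mem_sup_left hc) (mem_sup_right (mem_inf.2 ⟨hk, hkL⟩))
    have h2 := sylow_prod T hTM (hC4C.trans hCM) hC4n h1
    have hTKL : (T : Subgroup X) ⊓ (K ⊓ OO X) = pCore 2 X ⊓ OO X := by rw [← inf_assoc, hTK]
    rw [hTKL] at h2
    haveI : (pCore 2 X ⊓ OO X).Normal := inferInstance
    obtain ⟨s, hs, q, hq, hsq⟩ := mem_sup_of_normal_right.1 h2
    exact ⟨s, hs, q, hq, hsq⟩
  have hTC4 : (T : Subgroup X) ⊓ C4 ≤ (T : Subgroup X) ⊓ centralizer (V : Set X) := by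
    rw [← hTC]
    exact inf_le_inf_left _ hC4C
  have hTR : (T : Subgroup X) ≤ normalizer (((T : Subgroup X) ⊓ centralizer (V : Set X) : Subgroup X) : Set X) := by
    intro t ht
    have h1 := h.TV ht
    rw [mem_normalizer_iff_cj] at h1 ⊢
    rw [cj_inf, mem_normalizer_iff_cj.1 (le_normalizer ht), cj_centralizer, h1]
  have hQL : ⁅pCore 2 X, OO X⁆ ≤ (T : Subgroup X) ⊓ centralizer (V : Set X) := by
    refine le_inf ((commutator_le_left _ _).trans (pCore_le T)) ?_
    rw [commutator_eq_bot_iff_le_centralizer, le_centralizer_iff] at hB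
    exact hB.trans (centralizer_le (SetLike.coe_subset_coe.2 hVU))
  have hfin := pCore_inf_OO_le T inf_le_left hTR hQL (by
    intro t ht
    obtain ⟨s, hs, q, hq, rfl⟩ := key t ht
    exact mul_mem (mem_sup_left (hTC4 hs)) (mem_sup_right hq.1))
  intro t ht
  obtain ⟨s, hs, q, hq, rfl⟩ := key t ht
  exact mul_mem (hTC4 hs).2 (hfin hq).2

end Cfsg.Agent.QrcE
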