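import Cfsg.Agent.QrcE.COf
import Cfsg.Agent.QrcE.Main
import Cfsg.Agent.Mrg.Omega.Assembly

/-!
# S1824: the assembly, modulo the case `V ≰ O₂(H)`
-/

set_option autoImplicit false
set_option linter.unusedVariables false
set_option linter.style.haveILetI false

namespace Cfsg.Agent.QrcE

open Subgroup Cfsg Cfsg.Agent.MinSimple.MinParabolic Cfsg.Agent.PLocal.ThompsonJ
open Cfsg.Agent.ZN (o2 jj)
open Cfsg.Agent.ZN.ChoiceSit
open Cfsg.Agent.ZN.ChoiceBase (AA AA_nonempty le_jj jj_le jj_eq jj_eq_of_jj_le normalizer_le_jj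
  cj mem_cj cj_mono cj_le_iff cj_inv_cj cj_cj_inv card_cj cj_inf cj_centralizer
  mem_normalizer_iff_cj cj_cj cj_one normalizer_le_of_cj)
open Cfsg.Agent.MinSimple.VModule (oddGen mem_oddGen oddGen_le le_normalizer_oddGen)
open scoped commutatorElement

universe u

variable {G : Type u} [Group G]

/-- overgroups of `T` properly contained in `H ∈ ℋ_*(T, M)` lie in `M` -/
theorem le_of_calHMin [Finite G] (T : Sylow 2 G) {M H : Subgroup G} (hH : H ∈ calHMin (T : Subgroup G) M)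
    {K : Subgroup G} (hTK : (T : Subgroup G) ≤ K) (hKH : K ≤ H) (hne : K ≠ H) : K ≤ M := by
  by_contra h
  apply hne
  obtain ⟨⟨⟨h1, h2⟩, h3⟩, h4⟩ := hH
  have h1' : o2 H ≠ ⊥ := fun h => h1 ((Subgroup.map_eq_bot_iff_of_injective _ H.subtype_injective).1 h)
  refine h4 K ⟨⟨?_, hTK⟩, h⟩ hKH
  have h5 := (Omega.MinPar.isLoc_of_le_normalizer T hTK (isPGroup_o2 H) h1' (hKH.trans (le_normalizer_o2 H))).o2_ne
  intro h6
  apply h5
  change (pCore 2 K).map K.subtype = ⊥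
  rw [h6, Subgroup.map_bot]

theorem isMin_of_calHMin [Finite G] (T : Sylow 2 G) {M H : Subgroup G} (hH : H ∈ calHMin (T : Subgroup G) M) :
    IsMin ((T : Subgroup G).subgroupOf H) (M.subgroupOf H) := by
  refine ⟨fun h => hH.1.2 (subgroupOf_eq_top.1 h), fun K hTK hK => ?_⟩
  have hTH : (T : Subgroup G) ≤ H := hH.1.1.2
  have h1 : K.map H.subtype ≤ M := by
    refine le_of_calHMin T hH ?_ (map_subtype_le K) fun h => hK ?_
    · intro t ht
      exact ⟨⟨t, hTH ht⟩, hTK ht, rfl⟩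
    · rw [eq_top_iff]
      intro x _
      have hx : (x : G) ∈ K.map H.subtype := by rw [h]; exact x.2
      obtain ⟨y, hy, hyx⟩ := hx
      rwa [← Subtype.ext hyx]
  intro x hx
  exact h1 ⟨x, hx, rfl⟩

theorem asm [Finite G] (hE : IsOfEvenCharacteristic G) (hFF : Omega.FFBr.AStmt.{u})
    (T : Sylow 2 G) {M M₀ H V : Subgroup G}
    (hTM₀ : (T : Subgroup G) ≤ M₀) (hM₀M : M₀ ≤ M) (hH : H ∈ calHMin (T : Subgroup G) M)
    (hVM : V ≤ M₀) (hMV : M₀ ≤ normalizer (V : Set G)) (hVe : IsElementaryAbelian 2 V)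
    (hR : o2 M₀ = (T : Subgroup G) ⊓ centralizer (V : Set G))
    (hI : H ⊓ M ≤ normalizer (oddGen M₀ : Set G) ∨ H ⊓ M ≤ normalizer (V : Set G))
    (hd : ¬ V ≤ o2 H → CubicParamLE (T : Subgroup G) V 2) :
    (∃ R₀ : Subgroup G, R₀ ≠ ⊥ ∧ R₀ ≤ o2 M₀ ∧ M₀ ⊔ H ≤ normalizer (R₀ : Set G)) ∨
      (¬ V ≤ o2 H ∧ CubicParamLE M₀ V 2) ∨ QuadParamLE M₀ V 2 := by
  have hTH : (T : Subgroup G) ≤ H := hH.1.1.2
  have hHne : o2 H ≠ ⊥ := fun h => hH.1.1.1 ((Subgroup.map_eq_bot_iff_of_injective _ H.subtype_injective).1 h)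
  have hTsyl : Syl (T : Subgroup G) H := PushGen.sylow_syl T hTH
  have hTne : (T : Subgroup G) ≠ ⊥ := fun h => hHne (le_bot_iff.1 (h ▸ o2_le_syl hTsyl))
  have hU : ∃ K : Subgroup G, K < H ∧ ∀ Y : Subgroup G, (T : Subgroup G) ≤ Y → Y < H → Y ≤ K :=
    ⟨H ⊓ M, lt_of_le_of_ne inf_le_left fun h => hH.1.2 (inf_eq_left.1 h),
      fun Y hTY hYH => le_inf hYH.le (le_of_calHMin T hH hTY hYH.le hYH.ne)⟩
  have hRT : o2 M₀ ≤ (T : Subgroup G) := by rw [hR]; exact inf_le_left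
  have hRn : M₀ ≤ normalizer ((o2 M₀ : Subgroup G) : Set G) := le_normalizer_o2 M₀
  by_cases hV0 : V = ⊥
  · left
    have h1 : o2 M₀ = (T : Subgroup G) := by
      rw [hR, hV0]
      refine inf_eq_left.2 fun t _ => mem_centralizer_iff.2 fun y hy => ?_
      rw [show y = 1 from hy, one_mul, mul_one]
    rw [h1] at hRn ⊢
    exact PushGen.main hE T hTM₀ hTH hHne hU hTne le_rfl
      ⟨le_sup_right, T.isPGroup', fun Q _ hQ hTQ => T.is_maximal' hQ hTQ⟩ hRn
  have hV2 : IsPGroup 2 V := fun x => ⟨1, Subtype.ext (by simpa using hVe.2 x x.2)⟩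
  have hVR : V ≤ o2 M₀ := le_o2 hV2 hVM hMV
  have hVT : V ≤ (T : Subgroup G) := hVR.trans hRT
  have hTV : (T : Subgroup G) ≤ normalizer (V : Set G) := hTM₀.trans hMV
  have hVH : V ≤ H := hVT.trans hTH
  have hRne : o2 M₀ ≠ ⊥ := fun h => hV0 (le_bot_iff.1 (h ▸ hVR))
  by_cases hVQ : V ≤ o2 H
  swap
  · exact Or.inr (Or.inl ⟨hVQ, cubic_mono hTM₀ (hd hVQ)⟩)
  by_cases hq : QuadParamLE (T : Subgroup G) V 2
  · exact Or.inr (Or.inr (quad_mono hTM₀ hq))
  left
  by_cases hHV : H ≤ normalizer (V : Set G)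
  · exact ⟨V, hV0, hVR, sup_le hMV hHV⟩
  have hJ : ∀ A ∈ AA (T : Subgroup G), A ≤ centralizer (V : Set G) := by
    intro A hA
    by_contra h
    exact hq (quad_of_AA hVe hVT hTV hA h)
  by_cases hJ2 : ∀ A ∈ AA (T : Subgroup G), A ≤ o2 H
  · have h1 : jj (T : Subgroup G) ≤ o2 H := by rw [jj_eq]; exact sSup_le hJ2
    have h2 : jj (T : Subgroup G) ≤ o2 M₀ := by
      rw [hR]
      refine le_inf (jj_le _) ?_
      rw [jj_eq]
      exact sSup_le hJ
    have h3 := jj_eq_of_jj_le h1 (o2_le_syl hTsyl)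
    have h4 := jj_eq_of_jj_le h2 hRT
    refine ⟨jj (T : Subgroup G), ?_, h2, sup_le ?_ ?_⟩
    · intro h
      apply hV0
      obtain ⟨A, hA⟩ := AA_nonempty (T : Subgroup G)
      have h5 : A = ⊥ := le_bot_iff.1 (h ▸ le_jj hA)
      have h6 := hA.2.2 V hVe hVT
      rw [h5, card_bot] at h6
      exact eq_bot_of_card_le V h6
    · rw [← h4]
      exact hRn.trans (normalizer_le_jj _)
    · rw [← h3]
      exact (le_normalizer_o2 H).trans (normalizer_le_jj _)
  -- the group `X = H`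
  have hJ3 : ∃ A ∈ AA (T : Subgroup G), ¬ A ≤ o2 H := by
    push Not at hJ2
    exact hJ2
  set T' : Sylow 2 ↥H := T.subtype hTH with hT'
  have hT'c : (T' : Subgroup H) = (T : Subgroup G).subgroupOf H := rfl
  set W : Subgroup H := V.subgroupOf H with hW
  have hWmap : W.map H.subtype = V := map_subgroupOf_eq_of_le hVH
  have hTW : (T' : Subgroup H) ≤ normalizer (W : Set H) := by
    rw [hT'c]
    intro t ht
    rw [mem_normalizer_iff]
    intro v
    exact mem_normalizer_iff.1 (hTV ht) v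
  have hnn : ¬ W.Normal := fun h => hHV ((normal_subgroupOf_iff' hVH).1 h)
  have hnoq : ¬ QuadParamLE (T' : Subgroup H) W 2 := by
    intro h
    rw [hT'c] at h
    exact hq (quad_map hVH h)
  have hWQ : W ≤ pCore 2 ↥H := (le_o2_iff hVH).2 hVQ
  have hWe : IsElementaryAbelian 2 W := isElementaryAbelian_comap hVe H.subtype_injective
  have hQn : (pCore 2 ↥H).Normal := pCore_normal
  have hWg : ∀ g : H, cj g W ≤ (T' : Subgroup H) := by
    intro g
    refine le_trans ?_ (pCore_le T')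
    rintro _ ⟨w, hw, rfl⟩
    exact hQn.conj_mem w (hWQ hw) g
  have hUel : IsElementaryAbelian 2 (normalClosure (W : Set H)) := by
    refine Uel_of hWe fun g => ?_
    by_contra hcon
    exact hnoq (quad_of_pair hWe (hWg g) (hWg g⁻¹) ((hWg g).trans hTW) ((hWg g⁻¹).trans hTW) hcon)
  have hmin : IsMin (T' : Subgroup H) (M.subgroupOf H) := by rw [hT'c]; exact isMin_of_calHMin T hH
  have hsit : Sit T' (M.subgroupOf H) W := ⟨hmin, hWQ, hTW, hUel, hnn, hnoq⟩
  obtain ⟨C, hC1, hC2, hC3⟩ := exists_C T hTM₀ hM₀M hTH hR hI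
  have hWc : centralizer (W : Set H) = (centralizer (V : Set G)).subgroupOf H := centralizer_subgroupOf hVH
  have hfin : (T' : Subgroup H) ⊓ OO H ≤ centralizer (W : Set H) := by
    refine hsit.inf_OO_le hFF ?_ ?_ (C := C.subgroupOf H) ?_ ?_ ?_
    · intro A hA
      rw [hT'c, mem_AA_sub hTH] at hA
      have := hJ _ hA
      rw [← hWmap, map_le_centralizer_iff] at this
      exact this
    · obtain ⟨A, hA, hAQ⟩ := hJ3
      have hAH : A ≤ H := hA.2.1.trans hTH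
      refine ⟨A.subgroupOf H, ?_, ?_⟩
      · rw [hT'c, mem_AA_sub hTH, map_subgroupOf_eq_of_le hAH]
        exact hA
      · rw [le_o2_iff hAH]; exact hAQ
    · intro x hx
      exact (hC1 hx).2
    · intro m hm
      rw [mem_normalizer_iff]
      intro x
      exact mem_normalizer_iff.1 (hC2 ⟨m.2, hm⟩) x
    · rw [hT'c, hWc]
      ext x
      have h9 := SetLike.ext_iff.1 hC3 (x : G)
      simp only [mem_inf, mem_subgroupOf] at h9 ⊢
      exact h9
  refine PushGen.main hE T hTM₀ hTH hHne hU hRne hRT ?_ hRn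
  refine syl_of_inf_le hTsyl hRT (hTM₀.trans hRn) ?_
  rw [hR]
  refine le_inf inf_le_left ?_
  rintro x ⟨hxT, hxO⟩
  rw [SetLike.mem_coe, ← OO_map] at hxO
  obtain ⟨y, hy, rfl⟩ := hxO
  have h1 : y ∈ centralizer (W : Set H) := hfin (mem_inf.2 ⟨by rw [hT'c]; exact hxT, hy⟩)
  rw [hWc] at h1
  exact h1

end Cfsg.Agent.QrcE
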