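import Mathlib
import Cfsg.Prelude.Def_Quasithin
import Cfsg.Agent.MinSimple.MinParabolic
import Cfsg.Agent.PLocal.ThompsonJ
import Cfsg.Agent.PLocal.Timmesfeld

/-!
# S1824 (qrc-lemma), the case `V ≤ O₂(H)`, `⟨V^H⟩` abelian: basic facts

`X` is a finite group (the minimal parabolic `H`), `OO X = O²(X)`.
-/

set_option autoImplicit false

namespace Cfsg.Agent.QrcE

open Subgroup Cfsg Cfsg.Agent.MinSimple.MinParabolic
open scoped commutatorElement

universe u

/-- `O²(X)`: generated by the elements of odd order -/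
def OO (X : Type u) [Group X] : Subgroup X := closure {x : X | Odd (orderOf x)}

section

variable {X : Type u} [Group X]

theorem mem_OO {x : X} (hx : Odd (orderOf x)) : x ∈ OO X := subset_closure hx

theorem OO_le {K : Subgroup X} (h : ∀ x : X, Odd (orderOf x) → x ∈ K) : OO X ≤ K := (closure_le _).2 h

theorem orderOf_conj (g x : X) : orderOf (g * x * g⁻¹) = orderOf x := by
  have := MulEquiv.orderOf_eq (MulAut.conj g) x
  simpa using this

instance OO_normal : (OO X).Normal := by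
  refine ⟨fun n hn g => ?_⟩
  have : OO X ≤ (OO X).comap (MulAut.conj g).toMonoidHom := by
    refine OO_le fun x hx => ?_
    refine mem_OO ?_
    change Odd (orderOf (g * x * g⁻¹))
    rw [orderOf_conj]
    exact hx
  exact this hn

/-- an element of odd order, some 2-power power of which lies in `K`, lies in `K` -/
theorem mem_of_odd {K : Subgroup X} {x : X} (hx : Odd (orderOf x)) {n : ℕ} (h : x ^ 2 ^ n ∈ K) : x ∈ K := by
  have hc : (orderOf x).Coprime (2 ^ n) := (Nat.Coprime.pow_left n (Nat.coprime_two_left.2 hx)).symm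
  obtain ⟨m, hm⟩ := exists_pow_eq_self_of_coprime hc.symm
  rw [← hm]
  exact pow_mem h m

theorem OO_le_of_pow {N : Subgroup X} (h : ∀ x : X, ∃ n : ℕ, x ^ 2 ^ n ∈ N) : OO X ≤ N :=
  OO_le fun x hx => by
    obtain ⟨n, hn⟩ := h x
    exact mem_of_odd hx hn

/-- `N T = X` with `T` a 2-group implies `O²(X) ≤ N` -/
theorem OO_le_of_sup {N T : Subgroup X} [hN : N.Normal] (hT : IsPGroup 2 T) (h : N ⊔ T = ⊤) : OO X ≤ N := by
  refine OO_le_of_pow fun x => ?_
  have hx : x ∈ N ⊔ T := by rw [h]; trivial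
  obtain ⟨n, hn, t, ht, rfl⟩ := mem_sup_of_normal_left.1 hx
  obtain ⟨k, hk⟩ := hT ⟨t, ht⟩
  refine ⟨k, ?_⟩
  rw [← QuotientGroup.eq_one_iff, QuotientGroup.mk_pow, QuotientGroup.mk_mul, (QuotientGroup.eq_one_iff n).2 hn,
    one_mul, ← QuotientGroup.mk_pow, QuotientGroup.eq_one_iff]
  have h1 := congrArg Subtype.val hk
  simp only [SubmonoidClass.coe_pow, OneMemClass.coe_one] at h1
  rw [h1]
  exact one_mem _

/-- `O²(X) T = X` -/
theorem OO_sup [Finite X] (T : Sylow 2 X) : OO X ⊔ (T : Subgroup X) = ⊤ := by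
  have h1 : IsPGroup 2 (X ⧸ OO X) := by
    intro y
    obtain ⟨x, rfl⟩ := QuotientGroup.mk_surjective y
    obtain ⟨n, m, hm, hnm⟩ := Nat.exists_eq_two_pow_mul_odd (orderOf_pos x).ne'
    refine ⟨n, ?_⟩
    rw [← QuotientGroup.mk_pow, QuotientGroup.eq_one_iff]
    refine mem_OO ?_
    rw [orderOf_pow, hnm, Nat.gcd_eq_right (Dvd.intro _ rfl), Nat.mul_div_cancel_left _ (by positivity)]
    exact hm
  have h2 : ((OO X ⊔ (T : Subgroup X)).index) = 1 := by
    have h3 : (OO X ⊔ (T : Subgroup X)).index ∣ (OO X).index := index_dvd_of_le le_sup_left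
    have h4 : (OO X ⊔ (T : Subgroup X)).index ∣ (T : Subgroup X).index := index_dvd_of_le le_sup_right
    obtain ⟨k, hk⟩ := IsPGroup.iff_card.1 h1
    rw [← index_eq_card] at hk
    obtain ⟨j, -, hj⟩ := (Nat.dvd_prime_pow Nat.prime_two).1 (hk ▸ h3)
    rcases Nat.eq_zero_or_pos j with h0 | h0
    · rw [hj, h0, pow_zero]
    · exact absurd ((dvd_pow_self 2 h0.ne').trans (hj ▸ h4)) T.not_dvd_index
  exact index_eq_one.1 h2

theorem pCore_le (T : Sylow 2 X) : pCore 2 X ≤ (T : Subgroup X) := Lib.Cores.pCore_le_sylow T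

instance pCore_normal : (pCore 2 X).Normal := Lib.Cores.pCore_normal 2

/-- a normal subgroup of a minimal parabolic -/
theorem inf_le_or [Finite X] {T : Sylow 2 X} {M : Subgroup X} (h : IsMin (T : Subgroup X) M) (N : Subgroup X)
    [N.Normal] : (T : Subgroup X) ⊓ N ≤ pCore 2 X ∨ OO X ≤ N := by
  rcases sup_eq_top_or_inf_le h N with h1 | h1
  · exact Or.inr (OO_le_of_sup T.isPGroup' h1)
  · exact Or.inl h1

/-! ### Commutators with `O²(X)` -/

theorem comm_eq_bot_iff {A B : Subgroup X} : ⁅A, B⁆ = ⊥ ↔ ∀ a ∈ A, ∀ b ∈ B, a * b = b * a := by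
  rw [commutator_eq_bot_iff_le_centralizer]
  constructor
  · intro h a ha b hb
    exact (mem_centralizer_iff.1 (h ha) b hb).symm
  · intro h a ha
    exact mem_centralizer_iff.2 fun b hb => (h a ha b hb).symm

/-- `P` a 2-subgroup, `[P, L, L] ≤ N`, `N` normal: `[P, L] ≤ N` -/
theorem comm_le_of_comm_comm_le {P N : Subgroup X} [hN : N.Normal] [hPn : P.Normal] (hP : IsPGroup 2 P)
    (h : ⁅⁅P, OO X⁆, OO X⁆ ≤ N) : ⁅P, OO X⁆ ≤ N := by
  -- the centralizer of `P` modulo `N`
  set C : Subgroup X := (centralizer ((P.map (QuotientGroup.mk' N) : Subgroup (X ⧸ N)) : Set (X ⧸ N))).comap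
    (QuotientGroup.mk' N) with hC
  have h1 : OO X ≤ C := by
    refine OO_le fun x hx => ?_
    rw [hC, mem_comap, mem_centralizer_iff]
    rintro _ ⟨p, hp, rfl⟩
    -- `c = [x, p]` commutes with `x` modulo `N`
    set x' : X ⧸ N := QuotientGroup.mk' N x
    set p' : X ⧸ N := QuotientGroup.mk' N p
    set c' : X ⧸ N := x' * p' * x'⁻¹ * p'⁻¹ with hc'
    have hcc : x' * c' = c' * x' := by
      have h2 : ⁅⁅p, x⁆, x⁆ ∈ N := h (commutator_mem_commutator (commutator_mem_commutator hp (mem_OO hx)) (mem_OO hx))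
      have h3 : ⁅⁅p', x'⁆, x'⁆ = 1 := by
        have : QuotientGroup.mk' N ⁅⁅p, x⁆, x⁆ = 1 := (QuotientGroup.eq_one_iff _).2 h2
        rw [map_commutatorElement, map_commutatorElement] at this
        exact this
      rw [commutatorElement_eq_one_iff_mul_comm] at h3
      have h4 : c' = ⁅p', x'⁆⁻¹ := by rw [hc', commutatorElement_inv, commutatorElement_def]
      rw [h4]
      have h5 : Commute ⁅p', x'⁆ x' := h3
      exact (h5.inv_left).symm
    -- `x p x⁻¹ = c p`, `xⁿ p x⁻ⁿ = cⁿ p`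
    have h2 : ∀ n : ℕ, x' ^ n * p' * (x' ^ n)⁻¹ = c' ^ n * p' := by
      intro n
      induction n with
      | zero => simp
      | succ n ih =>
        have e1 : x' ^ (n + 1) * p' * (x' ^ (n + 1))⁻¹ = x' * (x' ^ n * p' * (x' ^ n)⁻¹) * x'⁻¹ := by
          rw [pow_succ', mul_inv_rev]
          group
        have e2 : x' * p' * x'⁻¹ = c' * p' := by rw [hc']; group
        have e3 : x' * c' ^ n = c' ^ n * x' := (show Commute x' c' from hcc).pow_right n
        rw [e1, ih, ← mul_assoc, e3, pow_succ, mul_assoc, mul_assoc, ← mul_assoc x', e2]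
        group
    have h3 : c' ^ orderOf x = 1 := by
      have h4 := h2 (orderOf x)
      have h5 : x' ^ orderOf x = 1 := by
        rw [← map_pow, pow_orderOf_eq_one, map_one]
      rw [h5] at h4
      simpa using h4
    have h4 : ∃ n : ℕ, c' ^ 2 ^ n = 1 := by
      have h5 : ⁅x, p⁆ ∈ P := by
        rw [commutatorElement_def]
        exact mul_mem (hPn.conj_mem _ hp x) (inv_mem hp)
      obtain ⟨n, hn⟩ := hP ⟨_, h5⟩
      refine ⟨n, ?_⟩
      have h6 := congrArg (fun z : P => QuotientGroup.mk' N (z : X)) hn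
      simpa [hc', commutatorElement_def, x', p'] using h6
    obtain ⟨n, hn⟩ := h4
    have h5 : c' = 1 := by
      have h6 : orderOf c' ∣ orderOf x := orderOf_dvd_of_pow_eq_one h3
      have h7 : orderOf c' ∣ 2 ^ n := orderOf_dvd_of_pow_eq_one hn
      have h8 : (orderOf x).Coprime (2 ^ n) := (Nat.Coprime.pow_left n (Nat.coprime_two_left.2 hx)).symm
      rw [← orderOf_eq_one_iff]
      exact Nat.eq_one_of_dvd_coprimes h8 h6 h7
    have h6 : x' * p' = p' * x' := by
      have : x' * p' * x'⁻¹ * p'⁻¹ = 1 := h5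
      rw [mul_inv_eq_one, mul_inv_eq_iff_eq_mul] at this
      exact this
    exact h6.symm
  rw [commutator_le]
  intro p hp l hl
  have h2 := h1 hl
  rw [hC, mem_comap, mem_centralizer_iff] at h2
  have h3 := h2 _ ⟨p, hp, rfl⟩
  rw [← QuotientGroup.eq_one_iff]
  change QuotientGroup.mk' N ⁅p, l⁆ = 1
  rw [map_commutatorElement, commutatorElement_eq_one_iff_mul_comm]
  exact h3

/-- `[P, L] = [P, L, L]` for a normal 2-subgroup `P` -/
theorem comm_comm_eq {P : Subgroup X} [P.Normal] (hP : IsPGroup 2 P) : ⁅⁅P, OO X⁆, OO X⁆ = ⁅P, OO X⁆ :=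
  le_antisymm (commutator_le_left _ _) (comm_le_of_comm_comm_le hP le_rfl)

theorem comm_eq_bot_of_le {P D : Subgroup X} [P.Normal] (hP : IsPGroup 2 P) (h1 : ⁅P, OO X⁆ ≤ D)
    (h2 : ⁅D, OO X⁆ = ⊥) : ⁅P, OO X⁆ = ⊥ :=
  le_bot_iff.1 (comm_le_of_comm_comm_le hP (by rw [← h2]; exact commutator_mono h1 le_rfl))

end

end Cfsg.Agent.QrcE
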