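import Mathlib

/-!
# S1824: counting with a pairing

`χ g` is a family of characters of `H` trivial on `N`, `χ g = χ g'` implies `g⁻¹ g' ∈ C`; then `|G : C| ≤ |H : N|`.
-/

set_option autoImplicit false

namespace Cfsg.Agent.QrcE

open Subgroup

theorem pairing_index {G H : Type*} [Group G] [Group H] [Finite H] (χ : G → (H →* ℚ)) (C : Subgroup G)
    (N : Subgroup H) [N.Normal] (hC : ∀ g g' : G, χ g = χ g' → g⁻¹ * g' ∈ C) (hN : ∀ g : G, ∀ h ∈ N, χ g h = 1) :
    C.index ≤ N.index := by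
  classical
  let ψ : G → (H ⧸ N →* ℚ) := fun g => QuotientGroup.lift N (χ g) (hN g)
  have hψ : ∀ g g', ψ g = ψ g' → g⁻¹ * g' ∈ C := by
    intro g g' h
    refine hC g g' (MonoidHom.ext fun x => ?_)
    have := DFunLike.congr_fun h (QuotientGroup.mk x)
    exact this
  let f : G ⧸ C → (H ⧸ N →* ℚ) := fun x => ψ x.out
  have hf : Function.Injective f := by
    intro x y hxy
    have h1 := hψ _ _ hxy
    rw [← QuotientGroup.out_eq' x, ← QuotientGroup.out_eq' y]
    exact QuotientGroup.eq.2 h1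
  have hlin : LinearIndependent ℚ (fun x : G ⧸ C => ((f x : H ⧸ N →* ℚ) : H ⧸ N → ℚ)) :=
    (linearIndependent_monoidHom (H ⧸ N) ℚ).comp f hf
  haveI : Fintype (H ⧸ N) := Fintype.ofFinite _
  haveI : Finite (G ⧸ C) := hlin.finite
  haveI : Fintype (G ⧸ C) := Fintype.ofFinite _
  have h1 := hlin.fintype_card_le_finrank
  rw [Module.finrank_fintype_fun_eq_card] at h1
  rw [index_eq_card, index_eq_card, Nat.card_eq_fintype_card, Nat.card_eq_fintype_card]
  exact h1

end Cfsg.Agent.QrcE
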