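import Cfsg.Agent.QrcE.CTwo
import Cfsg.Agent.QrcE.Pair
import Cfsg.Agent.Lib.Hyperfocal
import Cfsg.Agent.SignalizersComponents.PerfectGoingUp

/-!
# S1824, case (e): one noncentral chief factor

`U = ⟨V^X⟩`, `Q = O₂(X)`, `L = O²(X)`, `W = [U, L]`, `W / D` a chief factor, `[D, L] = 1`.

* `Sit.comm_E` : `[U, Q, L] = 1`;
* `Sit.comm_B` : `[U, [Q, L]] = 1`;
* `Sit.comm_WQ` : `[W, Q] = 1`.
-/

set_option autoImplicit false
set_option linter.unusedVariables false
set_option linter.unusedSectionVars false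
set_option linter.style.haveILetI false

namespace Cfsg.Agent.QrcE

open Subgroup Cfsg Cfsg.Agent.MinSimple.MinParabolic Cfsg.Agent.Omega.FFBr Cfsg.Agent.PLocal.ThompsonJ
open Cfsg.Agent.ZN.ChoiceBase (AA cj)
open scoped commutatorElement

universe u

variable {X : Type u} [Group X]

theorem sup_comm_le {A B C N : Subgroup X} [N.Normal] (h1 : ⁅A, C⁆ ≤ N) (h2 : ⁅B, C⁆ ≤ N) : ⁅A ⊔ B, C⁆ ≤ N :=
  (Lib.Cores.sup_commutator_le_iff A B C).2 ⟨h1, h2⟩

namespace Sit

variable [Finite X] {T : Sylow 2 X} {M V : Subgroup X} (h : Sit T M V)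
include h

/-- `U = V [U, L]` -/
theorem U_le_sup : normalClosure (V : Set X) ≤ V ⊔ ⁅normalClosure (V : Set X), OO X⁆ := by
  set U : Subgroup X := normalClosure (V : Set X) with hU
  haveI hUn : U.Normal := normalClosure_normal
  have hW : (⁅U, OO X⁆).Normal := commutator_normal U (OO X)
  have hVU : V ≤ U := subset_normalClosure
  have hn : (V ⊔ ⁅U, OO X⁆).Normal := by
    rw [← normalizer_eq_top_iff, eq_top_iff, ← OO_sup T]
    refine sup_le ?_ ?_
    · intro l hl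
      have key : ∀ l ∈ OO X, ∀ y ∈ V ⊔ ⁅U, OO X⁆, l * y * l⁻¹ ∈ V ⊔ ⁅U, OO X⁆ := by
        intro l hl y hy
        obtain ⟨v, hv, w, hw, rfl⟩ := mem_sup_of_normal_right.1 hy
        have e : l * (v * w) * l⁻¹ = v * (⁅v⁻¹, l⁆ * (l * w * l⁻¹)) := by
          rw [commutatorElement_def]; group
        rw [e]
        refine mul_mem (mem_sup_left hv) (mem_sup_right (mul_mem ?_ (hW.conj_mem _ hw l)))
        exact commutator_mem_commutator (inv_mem (hVU hv)) hl
      rw [mem_normalizer_iff]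
      refine fun y => ⟨key l hl y, fun hy => ?_⟩
      have := key l⁻¹ (inv_mem hl) _ hy
      have e : l⁻¹ * (l * y * l⁻¹) * l⁻¹⁻¹ = y := by group
      rwa [e] at this
    · intro t ht
      have h1 := h.TV ht
      rw [mem_normalizer_iff_map_conj_eq, Subgroup.map_sup, mem_normalizer_iff_map_conj_eq.1 h1]
      congr 1
      exact mem_normalizer_iff_map_conj_eq.1 ((normalizer_eq_top_iff.2 hW) ▸ mem_top t)
  exact normalClosure_le_normal (fun v hv => mem_sup_left hv)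

/-- `U = V [U, Q]` is impossible -/
theorem not_le_sup_comm : ¬ normalClosure (V : Set X) ≤ V ⊔ ⁅normalClosure (V : Set X), pCore 2 X⁆ := by
  intro h1
  set U : Subgroup X := normalClosure (V : Set X) with hU
  set Q : Subgroup X := pCore 2 X with hQ
  haveI hUn : U.Normal := normalClosure_normal
  have hVU : V ≤ U := subset_normalClosure
  have hUQ : U ≤ Q := h.U_le
  have hnil : Group.IsNilpotent Q := (T.isPGroup'.to_le (pCore_le T)).isNilpotent
  have hQV : Q ≤ normalizer (V : Set X) := (pCore_le T).trans h.TV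
  haveI : (V.subgroupOf Q).Normal := normal_subgroupOf_of_le_normalizer hQV
  have h2 : U.subgroupOf Q ≤ V.subgroupOf Q ⊔ ⁅U.subgroupOf Q, (⊤ : Subgroup Q)⁆ := by
    have e1 : (⁅U.subgroupOf Q, (⊤ : Subgroup Q)⁆).map Q.subtype = ⁅U, Q⁆ := by
      rw [map_commutator, subgroupOf_map_subtype, inf_eq_left.2 hUQ]
      congr 1
      rw [← MonoidHom.range_eq_map, range_subtype]
    have e2 : (V.subgroupOf Q ⊔ ⁅U.subgroupOf Q, (⊤ : Subgroup Q)⁆).map Q.subtype = V ⊔ ⁅U, Q⁆ := by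
      rw [Subgroup.map_sup, e1, subgroupOf_map_subtype, inf_eq_left.2 (hVU.trans hUQ)]
    have h3 : (U.subgroupOf Q).map Q.subtype ≤
        (V.subgroupOf Q ⊔ ⁅U.subgroupOf Q, (⊤ : Subgroup Q)⁆).map Q.subtype := by
      rw [e2, subgroupOf_map_subtype, inf_eq_left.2 hUQ]
      exact h1
    exact (map_le_map_iff_of_injective Q.subtype_injective).1 h3
  have h3 := Lib.Hyperfocal.le_of_le_sup_commutator h2
  have h4 : U ≤ V := by
    intro x hx
    exact h3 (show (⟨x, hUQ hx⟩ : Q) ∈ U.subgroupOf Q from hx)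
  apply h.nn
  have h5 : V = U := le_antisymm hVU h4
  rw [h5]
  exact hUn

/-- `[U, Q, L] = 1` -/
theorem comm_E {D : Subgroup X} [hDn : D.Normal] (hD : Chief D ⁅normalClosure (V : Set X), OO X⁆)
    (hDL : ⁅D, OO X⁆ = ⊥) : ⁅⁅normalClosure (V : Set X), pCore 2 X⁆, OO X⁆ = ⊥ := by
  by_contra hne
  set U : Subgroup X := normalClosure (V : Set X) with hU
  haveI hUn : U.Normal := normalClosure_normal
  haveI hWn : (⁅U, OO X⁆).Normal := commutator_normal U (OO X)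
  haveI hEn : (⁅U, pCore 2 X⁆).Normal := commutator_normal U (pCore 2 X)
  haveI hPn : (⁅⁅U, pCore 2 X⁆, OO X⁆).Normal := commutator_normal _ (OO X)
  have hEU : ⁅U, pCore 2 X⁆ ≤ U := commutator_le_left _ _
  have hPW : ⁅⁅U, pCore 2 X⁆, OO X⁆ ≤ ⁅U, OO X⁆ := commutator_mono hEU le_rfl
  have hPp : ⁅⁅⁅U, pCore 2 X⁆, OO X⁆, OO X⁆ = ⁅⁅U, pCore 2 X⁆, OO X⁆ :=
    comm_comm_eq (h.U_isPGroup.to_le hEU)
  have hPD : ¬ ⁅⁅U, pCore 2 X⁆, OO X⁆ ≤ D := by
    intro h1
    apply hne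
    rw [← hPp, eq_bot_iff, ← hDL]
    exact commutator_mono h1 le_rfl
  have hsup : ⁅⁅U, pCore 2 X⁆, OO X⁆ ⊔ D = ⁅U, OO X⁆ := by
    rcases hD.irr (⁅⁅U, pCore 2 X⁆, OO X⁆ ⊔ D) inferInstance le_sup_right (sup_le hPW hD.le) with h1 | h1
    · exact absurd (le_sup_left.trans h1.le) hPD
    · exact h1
  have hWW : ⁅⁅U, OO X⁆, OO X⁆ = ⁅U, OO X⁆ := comm_comm_eq h.U_isPGroup
  have hWE : ⁅U, OO X⁆ ≤ ⁅U, pCore 2 X⁆ := by
    calc ⁅U, OO X⁆ = ⁅⁅U, OO X⁆, OO X⁆ := hWW.symm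
      _ = ⁅⁅⁅U, pCore 2 X⁆, OO X⁆ ⊔ D, OO X⁆ := by rw [hsup]
      _ ≤ ⁅⁅U, pCore 2 X⁆, OO X⁆ := sup_comm_le hPp.le (by rw [hDL]; exact bot_le)
      _ ≤ ⁅U, pCore 2 X⁆ := commutator_le_left _ _
  exact h.not_le_sup_comm (h.U_le_sup.trans (sup_le_sup_left hWE _))

theorem comm_B_aux {D : Subgroup X} [hDn : D.Normal] (hD : Chief D ⁅normalClosure (V : Set X), OO X⁆)
    (hDL : ⁅D, OO X⁆ = ⊥) : ⁅⁅OO X, pCore 2 X⁆, ⁅normalClosure (V : Set X), pCore 2 X⁆⁆ = ⊥ ∧
      ∀ Z : Subgroup X, Z ≤ normalClosure (V : Set X) → ⁅Z, OO X⁆ = ⊥ → ⁅⁅OO X, pCore 2 X⁆, Z⁆ = ⊥ := by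
  set U : Subgroup X := normalClosure (V : Set X) with hU
  haveI hUn : U.Normal := normalClosure_normal
  haveI hEn : (⁅U, pCore 2 X⁆).Normal := commutator_normal U (pCore 2 X)
  have hE := h.comm_E hD hDL
  have hEU : ⁅U, pCore 2 X⁆ ≤ U := commutator_le_left _ _
  have key : ∀ Z : Subgroup X, Z ≤ U → ⁅Z, OO X⁆ = ⊥ → ⁅⁅OO X, pCore 2 X⁆, Z⁆ = ⊥ := by
    intro Z hZ hZL
    refine commutator_commutator_eq_bot_of_rotate ?_ ?_
    · rw [eq_bot_iff, ← hE]
      refine commutator_mono ?_ le_rfl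
      rw [commutator_comm]
      exact commutator_mono hZ le_rfl
    · rw [hZL, commutator_bot_left]
  exact ⟨key _ hEU hE, key⟩

/-- `[U, [Q, L]] = 1` -/
theorem comm_B {D : Subgroup X} [hDn : D.Normal] (hD : Chief D ⁅normalClosure (V : Set X), OO X⁆)
    (hDL : ⁅D, OO X⁆ = ⊥) : ⁅normalClosure (V : Set X), ⁅pCore 2 X, OO X⁆⁆ = ⊥ := by
  classical
  by_contra hne
  obtain ⟨hBE, hBZ⟩ := h.comm_B_aux hD hDL
  have hE := h.comm_E hD hDL
  set U : Subgroup X := normalClosure (V : Set X) with hU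
  set Q : Subgroup X := pCore 2 X with hQ
  haveI hUn : U.Normal := normalClosure_normal
  haveI hWn : (⁅U, OO X⁆).Normal := commutator_normal U (OO X)
  haveI hEn : (⁅U, Q⁆).Normal := commutator_normal U Q
  set B : Subgroup X := ⁅Q, OO X⁆ with hB
  haveI hBn : B.Normal := commutator_normal Q (OO X)
  have hQp : IsPGroup 2 Q := T.isPGroup'.to_le (pCore_le T)
  have hBQ : B ≤ Q := commutator_le_left _ _
  have hBB : ⁅B, OO X⁆ = B := comm_comm_eq hQp
  rw [commutator_comm (OO X) Q] at hBE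
  have hBZ' : ∀ Z : Subgroup X, Z ≤ U → ⁅Z, OO X⁆ = ⊥ → ⁅B, Z⁆ = ⊥ := fun Z hZ hZL => by
    have := hBZ Z hZ hZL
    rwa [commutator_comm (OO X) Q] at this
  have hVU : V ≤ U := subset_normalClosure
  haveI hE1n : (⁅U, B⁆).Normal := commutator_normal U B
  have hE1E : ⁅U, B⁆ ≤ ⁅U, Q⁆ := commutator_mono le_rfl hBQ
  have hEU : ⁅U, Q⁆ ≤ U := commutator_le_left _ _
  have hE1L : ⁅⁅U, B⁆, OO X⁆ = ⊥ := by
    rw [eq_bot_iff, ← hE]
    exact commutator_mono hE1E le_rfl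
  -- elements
  have hBEe : ∀ b ∈ B, ∀ e ∈ ⁅U, Q⁆, b * e = e * b := comm_eq_bot_iff.1 hBE
  have hUc : ∀ x ∈ U, ∀ y ∈ U, x * y = y * x := (isElementaryAbelian_iff.1 h.Uel).1
  have hBU : ∀ b ∈ B, ∀ u ∈ U, ⁅b, u⁆ ∈ ⁅U, B⁆ := fun b hb u hu => by
    rw [← commutatorElement_inv]
    exact inv_mem (commutator_mem_commutator hu hb)
  obtain ⟨H, hHn, hHlt, hH2⟩ := exists_hyper T (isElementaryAbelian_mono h.Uel (hE1E.trans hEU)) hE1L hne
  haveI := hHn
  -- the radical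
  set Um : Subgroup X := cW H U (B : Set X) with hUm
  have hUmn : Um.Normal := by
    refine ⟨fun u hu g => ⟨hUn.conj_mem u hu.1 g, fun b hb => ?_⟩⟩
    have h1 := hu.2 (g⁻¹ * b * g⁻¹⁻¹) (hBn.conj_mem b hb g⁻¹)
    have h2 := hHn.conj_mem _ h1 g
    have e : g * ⁅g⁻¹ * b * g⁻¹⁻¹, u⁆ * g⁻¹ = ⁅b, g * u * g⁻¹⁆ := by
      rw [commutatorElement_def, commutatorElement_def]; group
    rwa [e] at h2
  have hUmU : Um ≤ U := cW_le H U _
  have hWUm : ¬ ⁅U, OO X⁆ ≤ Um := by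
    intro h1
    have h2 : ⁅⁅U, OO X⁆, B⁆ ≤ H := by
      rw [commutator_le]
      intro w hw b hb
      rw [← commutatorElement_inv]
      exact inv_mem ((h1 hw).2 b hb)
    have h3 : ⁅⁅OO X, B⁆, U⁆ ≤ H := by
      have hn : ∀ K : Subgroup X, K ≤ normalizer (H : Set X) := fun K => by
        rw [normalizer_eq_top_iff.2 hHn]; exact le_top
      refine SignalizersComponents.PerfectGoingUp.three_subgroups_mod (hn _) (hn _) (hn _) ?_ h2
      rw [commutator_comm B U, hE1L]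
      exact bot_le
    rw [commutator_comm (OO X) B, hBB, commutator_comm] at h3
    exact absurd hHlt (not_lt_of_ge h3)
  have hDUm : D ≤ Um := by
    intro d hd
    have hDU : D ≤ U := hD.le.trans (commutator_le_left _ _)
    refine ⟨hDU hd, fun b hb => ?_⟩
    have h1 := comm_eq_bot_iff.1 (hBZ' D hDU hDL) b hb d hd
    rw [commutatorElement_eq_one_iff_mul_comm.2 h1]
    exact one_mem _
  have hUmW : Um ⊓ ⁅U, OO X⁆ = D := by
    rcases hD.irr (Um ⊓ ⁅U, OO X⁆) inferInstance (le_inf hDUm hD.le) inf_le_right with h1 | h1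
    · exact h1
    · exact absurd (inf_eq_right.1 h1) hWUm
  have hUmL : ⁅Um, OO X⁆ = ⊥ := by
    refine comm_eq_bot_of_le (D := D) (h.U_isPGroup.to_le hUmU) ?_ hDL
    rw [← hUmW]
    exact le_inf (commutator_le_left _ _) (commutator_mono hUmU le_rfl)
  have hUmB : ∀ b ∈ B, ∀ u ∈ Um, b * u = u * b := comm_eq_bot_iff.1 (hBZ' Um hUmU hUmL)
  -- the characters
  have hmulB : ∀ b ∈ B, ∀ b' ∈ B, ∀ u ∈ U, ⁅b * b', u⁆ = ⁅b, u⁆ * ⁅b', u⁆ := by
    intro b hb b' hb' u hu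
    have h1 : b * ⁅b', u⁆ = ⁅b', u⁆ * b := hBEe b hb _ (hE1E (hBU b' hb' u hu))
    have h2 : ⁅b', u⁆ * ⁅b, u⁆ = ⁅b, u⁆ * ⁅b', u⁆ :=
      hUc _ (hEU (hE1E (hBU b' hb' u hu))) _ (hEU (hE1E (hBU b hb u hu)))
    rw [← h2]
    calc ⁅b * b', u⁆ = (b * ⁅b', u⁆) * u * b⁻¹ * u⁻¹ := by
          simp only [commutatorElement_def]; group
      _ = (⁅b', u⁆ * b) * u * b⁻¹ * u⁻¹ := by rw [h1]
      _ = ⁅b', u⁆ * ⁅b, u⁆ := by simp only [commutatorElement_def]; group
  have hmulU : ∀ b ∈ B, ∀ u ∈ U, ∀ u' ∈ U, ⁅b, u * u'⁆ = ⁅b, u⁆ * ⁅b, u'⁆ := by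
    intro b hb u hu u' hu'
    have h1 : u * ⁅b, u'⁆ = ⁅b, u'⁆ * u := hUc u hu _ (hEU (hE1E (hBU b hb u' hu')))
    calc ⁅b, u * u'⁆ = ⁅b, u⁆ * (u * ⁅b, u'⁆) * u⁻¹ := by
          simp only [commutatorElement_def]; group
      _ = ⁅b, u⁆ * (⁅b, u'⁆ * u) * u⁻¹ := by rw [h1]
      _ = ⁅b, u⁆ * ⁅b, u'⁆ := by group
  have hite : ∀ x ∈ ⁅U, B⁆, ∀ y ∈ ⁅U, B⁆, (if x * y ∈ H then (1 : ℚ) else -1) =
      (if x ∈ H then (1 : ℚ) else -1) * (if y ∈ H then (1 : ℚ) else -1) := by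
    intro x hx y hy
    by_cases h1 : x ∈ H
    · by_cases h2 : y ∈ H
      · rw [if_pos h1, if_pos h2, if_pos (mul_mem h1 h2), mul_one]
      · have h3 : x * y ∉ H := fun h4 => h2 ((H.mul_mem_cancel_left h1).1 h4)
        rw [if_pos h1, if_neg h2, if_neg h3, one_mul]
    · by_cases h2 : y ∈ H
      · have h3 : x * y ∉ H := fun h4 => h1 ((H.mul_mem_cancel_right h2).1 h4)
        rw [if_neg h1, if_pos h2, if_neg h3, mul_one]
      · rw [if_neg h1, if_neg h2, if_pos (hH2 x hx y hy h1 h2)]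
        norm_num
  let χ : V → (B →* ℚ) := fun v =>
    { toFun := fun b => if ⁅(b : X), (v : X)⁆ ∈ H then 1 else -1
      map_one' := by
        rw [OneMemClass.coe_one, commutatorElement_one_left, if_pos (one_mem _)]
      map_mul' := fun b b' => by
        rw [Subgroup.coe_mul, hmulB b b.2 b' b'.2 v (hVU v.2)]
        exact hite _ (hBU b b.2 v (hVU v.2)) _ (hBU b' b'.2 v (hVU v.2)) }
  have hχ : ∀ (v : V) (b : B), χ v b = if ⁅(b : X), (v : X)⁆ ∈ H then 1 else -1 := fun _ _ => rfl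
  have hBV : B ≤ normalizer (V : Set X) := (hBQ.trans (pCore_le T)).trans h.TV
  haveI hNn : ((centralizer (V : Set X)).subgroupOf B).Normal := by
    refine normal_subgroupOf_of_le_normalizer ?_
    intro b hb
    have h1 := hBV hb
    rw [mem_normalizer_iff]
    intro y
    have key : ∀ b ∈ normalizer (V : Set X), ∀ y ∈ centralizer (V : Set X), b * y * b⁻¹ ∈ centralizer (V : Set X) := by
      intro b hb y hy
      rw [mem_centralizer_iff]
      intro v hv
      have h2 : b⁻¹ * v * b ∈ V := by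
        have := (mem_normalizer_iff.1 (inv_mem hb) v).1 hv
        rwa [inv_inv] at this
      have h3 := mem_centralizer_iff.1 hy _ h2
      calc v * (b * y * b⁻¹) = b * ((b⁻¹ * v * b) * y) * b⁻¹ := by group
        _ = b * (y * (b⁻¹ * v * b)) * b⁻¹ := by rw [h3]
        _ = b * y * b⁻¹ * v := by group
    refine ⟨key b h1 y, fun hy => ?_⟩
    have := key b⁻¹ (inv_mem h1) _ hy
    have e : b⁻¹ * (b * y * b⁻¹) * b⁻¹⁻¹ = y := by group
    rwa [e] at this
  have hcount : ((centralizer (B : Set X)).subgroupOf V).index ≤ ((centralizer (V : Set X)).subgroupOf B).index := by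
    refine pairing_index χ _ _ ?_ ?_
    · intro v v' hvv
      rw [mem_subgroupOf, mem_centralizer_iff]
      have hmem : (v : X)⁻¹ * v' ∈ Um := by
        refine ⟨mul_mem (inv_mem (hVU v.2)) (hVU v'.2), fun b hb => ?_⟩
        have h1 := DFunLike.congr_fun hvv ⟨b, hb⟩
        rw [hχ, hχ] at h1
        rw [hmulU b hb _ (inv_mem (hVU v.2)) _ (hVU v'.2)]
        have h2 : ⁅b, (v : X)⁻¹⁆ = ⁅b, (v : X)⁆⁻¹ := by
          have h3 := hmulU b hb _ (hVU v.2) _ (inv_mem (hVU v.2))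
          rw [mul_inv_cancel, commutatorElement_one_right] at h3
          exact (inv_eq_of_mul_eq_one_right h3.symm).symm
        rw [h2]
        by_cases h4 : ⁅b, (v : X)⁆ ∈ H
        · rw [if_pos h4] at h1
          have h5 : ⁅b, (v' : X)⁆ ∈ H := by
            by_contra h6
            rw [if_neg h6] at h1
            norm_num at h1
          exact mul_mem (inv_mem h4) h5
        · rw [if_neg h4] at h1
          have h5 : ⁅b, (v' : X)⁆ ∉ H := by
            intro h6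
            rw [if_pos h6] at h1
            norm_num at h1
          exact hH2 _ (inv_mem (hBU b hb v (hVU v.2))) _ (hBU b hb v' (hVU v'.2))
            (fun h7 => h4 (by simpa using inv_mem h7)) h5
      intro b hb
      exact hUmB b hb _ hmem
    · intro v b hb
      rw [mem_subgroupOf, mem_centralizer_iff] at hb
      have h1 : ⁅(b : X), (v : X)⁆ = 1 := by
        rw [commutatorElement_eq_one_iff_mul_comm]
        exact (hb v v.2).symm
      rw [hχ, h1, if_pos (one_mem _)]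
  -- the conclusion
  apply h.noq
  have hBVE : ⁅V, B⁆ ≤ ⁅U, Q⁆ := commutator_mono hVU hBQ
  refine quadParamLE_of_card (B := B) (hBQ.trans (pCore_le T)) ?_ ?_ ?_ ?_ ?_
  · intro b hb
    rw [mem_centralizer_iff]
    intro v hv
    have h1 := hmulB b hb b hb v (hVU hv)
    have h2 : ⁅b, v⁆ * ⁅b, v⁆ = 1 := by
      rw [← pow_two]
      exact h.Uel.2 _ (hEU (hE1E (hBU b hb v (hVU hv))))
    rw [h2, ← pow_two, commutatorElement_eq_one_iff_mul_comm] at h1
    exact h1.symm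
  · have h1 : ⁅⁅B, B⁆, V⁆ = ⊥ := by
      refine commutator_commutator_eq_bot_of_rotate ?_ ?_
      · rw [eq_bot_iff, ← hBE, commutator_comm B V, commutator_comm ⁅V, B⁆ B]
        exact commutator_mono le_rfl hBVE
      · rw [eq_bot_iff, ← hBE, commutator_comm ⁅V, B⁆ B]
        exact commutator_mono le_rfl hBVE
    intro b hb b' hb'
    rw [mem_centralizer_iff]
    intro v hv
    exact (comm_eq_bot_iff.1 h1 ⁅b, b'⁆ (commutator_mem_commutator hb hb') v hv).symm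
  · intro h1
    apply hne
    rw [commutator_eq_bot_iff_le_centralizer, le_centralizer_iff]
    refine normalClosure_le_centralizer fun g => ?_
    intro b hb
    have h2 := h1 (hBn.conj_mem b hb g⁻¹)
    rw [mem_centralizer_iff] at h2 ⊢
    rintro _ ⟨v, hv, rfl⟩
    have h3 := h2 v hv
    change g * v * g⁻¹ * b = b * (g * v * g⁻¹)
    calc g * v * g⁻¹ * b = g * (v * (g⁻¹ * b * g⁻¹⁻¹)) * g⁻¹ := by group
      _ = g * ((g⁻¹ * b * g⁻¹⁻¹) * v) * g⁻¹ := by rw [h3]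
      _ = b * (g * v * g⁻¹) := by group
  · rw [eq_bot_iff, ← hBE, commutator_comm ⁅V, B⁆ B]
    exact commutator_mono le_rfl hBVE
  · have h1 := card_inf_mul_relIndex V (centralizer (B : Set X))
    have h2 := card_inf_mul_relIndex B (centralizer (V : Set X))
    have h3 : (centralizer (B : Set X)).relIndex V ≤ (centralizer (V : Set X)).relIndex B := hcount
    have h4 : 1 ≤ (centralizer (V : Set X)).relIndex B := by
      rw [Nat.one_le_iff_ne_zero, relIndex]; exact index_ne_zero_of_finite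
    rw [← h1, ← h2]
    set r := (centralizer (B : Set X)).relIndex V
    set s := (centralizer (V : Set X)).relIndex B
    set b0 := Nat.card ↥(B ⊓ centralizer (V : Set X))
    set v0 := Nat.card ↥(V ⊓ centralizer (B : Set X))
    calc b0 ^ 2 * (v0 * r) ≤ b0 ^ 2 * (v0 * (s * s)) := by
          refine Nat.mul_le_mul_left _ (Nat.mul_le_mul_left _ ?_)
          exact h3.trans (Nat.le_mul_of_pos_right _ h4)
      _ = (b0 * s) ^ 2 * v0 := by ring

/-- `[W, Q] = 1` -/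
theorem comm_WQ {D : Subgroup X} [hDn : D.Normal] (hD : Chief D ⁅normalClosure (V : Set X), OO X⁆)
    (hDL : ⁅D, OO X⁆ = ⊥) : ⁅⁅normalClosure (V : Set X), OO X⁆, pCore 2 X⁆ = ⊥ := by
  refine commutator_commutator_eq_bot_of_rotate ?_ ?_
  · rw [commutator_comm (OO X), commutator_comm]
    exact h.comm_B hD hDL
  · rw [commutator_comm (pCore 2 X)]
    exact h.comm_E hD hDL

end Sit

end Cfsg.Agent.QrcE
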