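import Cfsg.Agent.QrcE.Sec
import Cfsg.Agent.QrcE.Pass
import Cfsg.Agent.S0599
import Cfsg.Agent.PLocal.ElemAbSup

/-!
# S1824, case (e): at most one noncentral chief factor in `U = ⟨V^X⟩`

* `Sit` : the situation;
* `Sit.exists_best` : a quadratic best offender `A ≤ T`, `A ≰ O₂(X)`;
* `exists_chief` : a chief factor at the top of `W = [W, O²(X)]`;
* `Sit.comm_D` : `[D, O²(X)] = 1` for a chief factor `W / D`, `W = [U, O²(X)]`.
-/

set_option autoImplicit false
set_option linter.unusedVariables false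
set_option linter.unusedSectionVars false
set_option linter.style.haveILetI false

namespace Cfsg.Agent.QrcE

open Subgroup Cfsg Cfsg.Agent.MinSimple.MinParabolic Cfsg.Agent.Omega.FFBr Cfsg.Agent.PLocal.ThompsonJ
open Cfsg.Agent.ZN.ChoiceBase (AA)
open scoped commutatorElement

universe u

variable {X : Type u} [Group X]

/-- the situation: `V ≤ O₂(X)`, `U = ⟨V^X⟩` elementary abelian, `q(T, V) > 2` -/
structure Sit (T : Sylow 2 X) (M V : Subgroup X) : Prop where
  min : IsMin (T : Subgroup X) M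
  VQ : V ≤ pCore 2 X
  TV : (T : Subgroup X) ≤ normalizer (V : Set X)
  Uel : IsElementaryAbelian 2 (normalClosure (V : Set X))
  nn : ¬ V.Normal
  noq : ¬ QuadParamLE (T : Subgroup X) V 2

/-- elementary abelian subgroups of `T` of maximal order are best offenders -/
theorem best_of_AA [Finite X] {T U A B : Subgroup X} (hA : A ∈ AA T) (hU : IsElementaryAbelian 2 U) (hUT : U ≤ T)
    (hB : B ≤ A) :
    Nat.card B * Nat.card ↥(U ⊓ centralizer (B : Set X)) ≤ Nat.card A * Nat.card ↥(U ⊓ centralizer (A : Set X)) := by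
  have hBe := isElementaryAbelian_mono hA.1 hB
  have hCe : IsElementaryAbelian 2 (U ⊓ centralizer (B : Set X)) := isElementaryAbelian_mono hU inf_le_left
  have hc : U ⊓ centralizer (B : Set X) ≤ centralizer (B : Set X) := inf_le_right
  rw [← PLocal.ElemAbSup.card_sup_mul_card_inf hc]
  refine Nat.mul_le_mul ?_ ?_
  · exact hA.2.2 _ (PLocal.ElemAbSup.isElementaryAbelian_sup hBe hCe hc) (sup_le (hB.trans hA.2.1) (inf_le_left.trans hUT))
  · refine card_le_of_le (le_inf (inf_le_right.trans inf_le_left) ?_)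
    intro x hx
    rw [mem_centralizer_iff]
    intro a ha
    exact (isElementaryAbelian_iff.1 hA.1).1 a ha x (hB hx.1)

/-- `W / D` with `D` maximal -/
theorem exists_chief [Finite X] {W : Subgroup X} [hW : W.Normal] (hWe : IsElementaryAbelian 2 W)
    (h : ⁅W, OO X⁆ = W) (hne : W ≠ ⊥) : ∃ D : Subgroup X, ∃ _ : D.Normal, Chief D W := by
  obtain ⟨D, hD⟩ := (Set.toFinite {D : Subgroup X | D.Normal ∧ D < W}).exists_maximal
    ⟨⊥, inferInstance, bot_lt_iff_ne_bot.2 hne⟩
  refine ⟨D, hD.prop.1, hD.prop.2.le, fun w hw => ?_, fun N hN hDN hNW => ?_, fun h1 => ?_⟩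
  · rw [← pow_two, hWe.2 w hw]; exact one_mem _
  · by_cases h1 : N = W
    · exact Or.inr h1
    · exact Or.inl (le_antisymm (hD.le_of_ge ⟨hN, lt_of_le_of_ne hNW h1⟩ hDN) hDN)
  · rw [h] at h1
    exact absurd hD.prop.2 (not_lt_of_ge h1)

theorem comm_le_left_of_normal (A B : Subgroup X) [A.Normal] : ⁅A, B⁆ ≤ A := commutator_le_left A B

namespace Sit

variable [Finite X] {T : Sylow 2 X} {M V : Subgroup X} (h : Sit T M V)
include h

theorem U_le : normalClosure (V : Set X) ≤ pCore 2 X := normalClosure_le_normal h.VQ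

theorem U_le_T : normalClosure (V : Set X) ≤ (T : Subgroup X) := h.U_le.trans (pCore_le T)

theorem U_isPGroup : IsPGroup 2 (normalClosure (V : Set X)) := T.isPGroup'.to_le h.U_le_T

/-- `O²(X)` moves `V` -/
theorem not_OO_le : ¬ OO X ≤ normalizer (V : Set X) := by
  intro h1
  apply h.nn
  rw [← normalizer_eq_top_iff, eq_top_iff, ← OO_sup T]
  exact sup_le h1 h.TV

theorem comm_ne : ⁅normalClosure (V : Set X), OO X⁆ ≠ ⊥ := by
  intro h1
  apply h.not_OO_le
  rw [commutator_eq_bot_iff_le_centralizer, le_centralizer_iff] at h1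
  refine h1.trans ((centralizer_le ?_).trans (centralizer_le_normalizer _))
  exact subset_normalClosure

/-- `C_T(U) ≤ O₂(X)` -/
theorem inf_centralizer_le :
    (T : Subgroup X) ⊓ centralizer ((normalClosure (V : Set X) : Subgroup X) : Set X) ≤ pCore 2 X := by
  haveI : (centralizer ((normalClosure (V : Set X) : Subgroup X) : Set X)).Normal := normal_centralizer
  rcases inf_le_or h.min (centralizer ((normalClosure (V : Set X) : Subgroup X) : Set X)) with h1 | h1
  · exact h1
  · exfalso
    apply h.comm_ne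
    rw [commutator_eq_bot_iff_le_centralizer, le_centralizer_iff]
    exact h1

/-- the offender inequality on `U` for a subgroup of `O₂(X)` is impossible -/
theorem no_pass {B : Subgroup X} (hBQ : B ≤ pCore 2 X) (hB : IsElementaryAbelian 2 B)
    (ne : ¬ B ≤ centralizer ((normalClosure (V : Set X) : Subgroup X) : Set X))
    (quad : ⁅⁅normalClosure (V : Set X), B⁆, B⁆ = ⊥)
    (hle : Nat.card ↥(B ⊓ centralizer ((normalClosure (V : Set X) : Subgroup X) : Set X)) ^ 2 *
        Nat.card (normalClosure (V : Set X)) ≤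
      Nat.card B ^ 2 * Nat.card ↥(normalClosure (V : Set X) ⊓ centralizer (B : Set X))) : False :=
  h.noq (pass T hBQ hB ne quad hle)

/-- **a quadratic best offender outside `O₂(X)`** -/
theorem exists_best {A₀ : Subgroup X} (hA₀ : A₀ ∈ AA (T : Subgroup X)) (hA₀Q : ¬ A₀ ≤ pCore 2 X) :
    ∃ A : Subgroup X, A ≤ A₀ ∧ ¬ A ≤ pCore 2 X ∧
      (∀ B : Subgroup X, B ≤ A → Nat.card B * Nat.card ↥(normalClosure (V : Set X) ⊓ centralizer (B : Set X)) ≤
        Nat.card A * Nat.card ↥(normalClosure (V : Set X) ⊓ centralizer (A : Set X))) ∧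
      ⁅⁅normalClosure (V : Set X), A⁆, A⁆ = ⊥ := by
  set U : Subgroup X := normalClosure (V : Set X) with hU
  have hUn : U.Normal := normalClosure_normal
  have hAn : A₀ ≤ normalizer (U : Set X) := by rw [normalizer_eq_top_iff.2 hUn]; exact le_top
  have hbo : IsBestOffenderOn 2 U A₀ := by
    refine ⟨fun B hB => best_of_AA hA₀ h.Uel h.U_le_T hB, ?_, ?_⟩
    · rw [commutator_le]
      intro a ha b hb
      have h1 : a * b = b * a := isElementaryAbelian_comm hA₀.1 ha hb
      rw [commutatorElement_eq_one_iff_mul_comm.2 h1]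
      exact one_mem _
    · intro a ha
      rw [isElementaryAbelian_pow hA₀.1 ha]
      exact one_mem _
  obtain ⟨hb1, -, hb2⟩ := S0599.result U A₀ h.Uel hAn hbo U le_rfl
  set A : Subgroup X := A₀ ⊓ centralizer ((⁅U, A₀⁆ : Subgroup X) : Set X) with hA
  have hAA₀ : A ≤ A₀ := inf_le_left
  have hne0 : ⁅U, A₀⁆ ≠ ⊥ := by
    intro h1
    apply hA₀Q
    refine (le_inf hA₀.2.1 ?_).trans h.inf_centralizer_le
    rwa [commutator_eq_bot_iff_le_centralizer, le_centralizer_iff] at h1
  have hne := hb2 hne0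
  have hquad : ⁅⁅U, A⁆, A⁆ = ⊥ := by
    rw [commutator_eq_bot_iff_le_centralizer, le_centralizer_iff]
    exact inf_le_right.trans (centralizer_le (SetLike.coe_subset_coe.2 (commutator_mono le_rfl hAA₀)))
  refine ⟨A, hAA₀, ?_, hb1.1, hquad⟩
  intro hAQ
  have hnc : ¬ A ≤ centralizer (U : Set X) := by
    intro h1
    apply hne
    rwa [commutator_eq_bot_iff_le_centralizer, le_centralizer_iff]
  refine h.no_pass hAQ (isElementaryAbelian_mono hA₀.1 hAA₀) hnc hquad ?_
  have h1 := hb1.1 (A ⊓ centralizer (U : Set X)) inf_le_left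
  have h2 : U ⊓ centralizer ((A ⊓ centralizer (U : Set X) : Subgroup X) : Set X) = U :=
    inf_eq_left.2 (le_centralizer_iff.1 inf_le_right)
  rw [h2] at h1
  have h3 : Nat.card ↥(A ⊓ centralizer (U : Set X)) ≤ Nat.card A := card_le_of_le inf_le_left
  calc Nat.card ↥(A ⊓ centralizer (U : Set X)) ^ 2 * Nat.card U
      = Nat.card ↥(A ⊓ centralizer (U : Set X)) * (Nat.card ↥(A ⊓ centralizer (U : Set X)) * Nat.card U) := by ring
    _ ≤ Nat.card A * (Nat.card A * Nat.card ↥(U ⊓ centralizer (A : Set X))) := Nat.mul_le_mul h3 h1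
    _ = _ := by ring

/-- **c = 1** -/
theorem comm_D (hFF : AStmt.{u}) {A₀ : Subgroup X} (hA₀ : A₀ ∈ AA (T : Subgroup X)) (hA₀Q : ¬ A₀ ≤ pCore 2 X)
    {D : Subgroup X} [hDn : D.Normal] (hD : Chief D ⁅normalClosure (V : Set X), OO X⁆) : ⁅D, OO X⁆ = ⊥ := by
  set U : Subgroup X := normalClosure (V : Set X) with hU
  haveI hUn : U.Normal := normalClosure_normal
  set W : Subgroup X := ⁅U, OO X⁆ with hW
  haveI hWn : W.Normal := commutator_normal U (OO X)
  have hWU : W ≤ U := commutator_le_left U (OO X)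
  obtain ⟨A, hAA₀, hAQ, hbest, hquad⟩ := h.exists_best hA₀ hA₀Q
  have hAe := isElementaryAbelian_mono hA₀.1 hAA₀
  have hAT : A ≤ (T : Subgroup X) := hAA₀.trans hA₀.2.1
  by_contra hne
  -- the second chief factor
  have hDe : IsElementaryAbelian 2 D := isElementaryAbelian_mono h.Uel (hD.le.trans hWU)
  have hDp : IsPGroup 2 D := h.U_isPGroup.to_le (hD.le.trans hWU)
  haveI hW2n : (⁅D, OO X⁆).Normal := commutator_normal D (OO X)
  have hW2D : ⁅D, OO X⁆ ≤ D := commutator_le_left D (OO X)
  obtain ⟨D2, hD2n, hD2⟩ := exists_chief (isElementaryAbelian_mono hDe hW2D) (comm_comm_eq hDp) hne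
  -- the inequalities
  set e := (pCore 2 X).relIndex A with he
  have h1 := noOver_sec hFF h.min hD hAT hAe
  have h2 := noOver_sec hFF h.min hD2 hAT hAe
  have h3 : (centralizer (A : Set X)).relIndex ⁅D, OO X⁆ ≤ (centralizer (A : Set X)).relIndex D :=
    relIndex_le_of_le_right hW2D (by rw [relIndex]; exact index_ne_zero_of_finite)
  have h4 : (centralizer (A : Set X)).relIndex W ≤ (centralizer (A : Set X)).relIndex U :=
    relIndex_le_of_le_right hWU (by rw [relIndex]; exact index_ne_zero_of_finite)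
  have h5 : 1 ≤ (centralizer (A : Set X)).relIndex D2 := by
    rw [Nat.one_le_iff_ne_zero, relIndex]; exact index_ne_zero_of_finite
  have h6 : e * e ≤ (centralizer (A : Set X)).relIndex U := by
    calc e * e ≤ e * (e * (centralizer (A : Set X)).relIndex D2) :=
          Nat.mul_le_mul_left _ (Nat.le_mul_of_pos_right _ h5)
      _ ≤ e * (centralizer (A : Set X)).relIndex D := Nat.mul_le_mul_left _ (h2.trans h3)
      _ ≤ _ := h1.trans h4
  -- the orders
  set A1 : Subgroup X := A ⊓ pCore 2 X with hA1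
  have ha := card_inf_mul_relIndex A (pCore 2 X)
  have hu := card_inf_mul_relIndex U (centralizer (A : Set X))
  have hz : A ⊓ centralizer (U : Set X) = A1 ⊓ centralizer (U : Set X) := by
    apply le_antisymm
    · refine le_inf (le_inf inf_le_left ?_) inf_le_right
      exact (inf_le_inf_right _ hAT).trans h.inf_centralizer_le
    · exact inf_le_inf_right _ inf_le_left
  have hb := hbest (A ⊓ centralizer (U : Set X)) inf_le_left
  have hb2 : U ⊓ centralizer ((A ⊓ centralizer (U : Set X) : Subgroup X) : Set X) = U :=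
    inf_eq_left.2 (le_centralizer_iff.1 inf_le_right)
  rw [hb2, hz, ← ha] at hb
  have hc : Nat.card ↥(U ⊓ centralizer (A : Set X)) ≤ Nat.card ↥(U ⊓ centralizer (A1 : Set X)) :=
    card_le_of_le (inf_le_inf_left _ (centralizer_le (SetLike.coe_subset_coe.2 inf_le_left)))
  have pz : 0 < Nat.card ↥(A1 ⊓ centralizer (U : Set X)) := Nat.card_pos
  have pc : 0 < Nat.card ↥(U ⊓ centralizer (A : Set X)) := Nat.card_pos
  have pe : 0 < e := by
    rw [he, Nat.pos_iff_ne_zero, relIndex]; exact index_ne_zero_of_finite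
  have hne1 : e ≠ 1 := fun h7 => hAQ (relIndex_eq_one.1 h7)
  set z := Nat.card ↥(A1 ⊓ centralizer (U : Set X)) with hzdef
  set c := Nat.card ↥(U ⊓ centralizer (A : Set X)) with hcdef
  set c0 := Nat.card ↥(U ⊓ centralizer (A1 : Set X)) with hc0def
  set a0 := Nat.card A1 with ha0def
  set u := Nat.card U with hudef
  -- `z e ≤ a0`
  have h7 : z * e ≤ a0 := by
    have h8 : z * (c * (e * e)) ≤ a0 * e * c := by
      refine le_trans ?_ hb
      rw [← hu]
      exact Nat.mul_le_mul_left _ (Nat.mul_le_mul_left _ h6)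
    refine Nat.le_of_mul_le_mul_right (c := e * c) ?_ (Nat.mul_pos pe pc)
    calc z * e * (e * c) = z * (c * (e * e)) := by ring
      _ ≤ a0 * e * c := h8
      _ = _ := by ring
  refine h.no_pass (B := A1) inf_le_right (isElementaryAbelian_mono hAe inf_le_left) ?_ ?_ ?_
  · intro h8
    have h9 : z = a0 := by rw [hzdef, ha0def, inf_eq_left.2 h8]
    rw [h9] at h7
    have h10 : 0 < a0 := Nat.card_pos
    have h11 : e ≤ 1 := Nat.le_of_mul_le_mul_left (by linarith) h10
    omega
  · refine le_bot_iff.1 ?_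
    rw [← hquad]
    exact commutator_mono (commutator_mono le_rfl inf_le_left) inf_le_left
  · calc z ^ 2 * u = z * (z * u) := by ring
      _ ≤ z * (a0 * e * c) := Nat.mul_le_mul_left _ hb
      _ = (z * e) * (a0 * c) := by ring
      _ ≤ a0 * (a0 * c0) := Nat.mul_le_mul h7 (Nat.mul_le_mul_left _ hc)
      _ = _ := by ring

end Sit

end Cfsg.Agent.QrcE
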