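import Cfsg.Agent.Qrc.DBase

/-!
# S1824, case `V ≰ O₂(H)`: class two

`J ⊴ T`, `V ≤ J ≤ C(V)`; for every `x ∉ M` the group `X` is generated by `J`, `J^x` and `R ≤ O₂(X)`.  Then
`[D, U]` is centralised by `O²(X)` (`D = V ∩ O₂(X)`, `U = ⟨D^X⟩`).
-/

set_option autoImplicit false
set_option linter.unusedVariables false
set_option linter.unusedSectionVars false

namespace Cfsg.Agent.QrcE

open Subgroup Cfsg Cfsg.Agent.MinSimple.MinParabolic Cfsg.Agent.Omega.FFBr Cfsg.Agent.Qrc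
open Cfsg.Agent.PLocal.ThompsonJ
open Cfsg.Agent.ZN.ChoiceBase (cj mem_cj cj_mono cj_le_iff cj_inv_cj cj_cj_inv card_cj cj_inf cj_centralizer
  isElementaryAbelian_cj mem_normalizer_iff_cj cj_cj cj_one mem_normalizer_of_cj_le cj_normalizer)
open scoped commutatorElement

universe u

variable {X : Type u} [Group X]

/-- `A` normalises `N` and `[A, B] ≤ N`: `A` normalises `N B` -/
theorem cj_sup_le_of_comm {A N B : Subgroup X} (hAN : A ≤ normalizer (N : Set X)) (h : ⁅A, B⁆ ≤ N) {a : X}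
    (ha : a ∈ A) : cj a (N ⊔ B) ≤ N ⊔ B := by
  rw [cj, Subgroup.map_sup]
  refine sup_le ?_ ?_
  · exact (mem_normalizer_iff_cj.1 (hAN ha)).le.trans le_sup_left
  · rintro _ ⟨b, hb, rfl⟩
    have h1 : ⁅a, b⁆ ∈ N := h (commutator_mem_commutator ha hb)
    have e : (MulAut.conj a).toMonoidHom b = ⁅a, b⁆ * b := by
      rw [commutatorElement_def]
      change a * b * a⁻¹ = _
      group
    rw [e]
    exact mul_mem (mem_sup_left h1) (mem_sup_right hb)

theorem le_normalizer_sup_of_comm [Finite X] {A N B : Subgroup X} (hAN : A ≤ normalizer (N : Set X))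
    (h : ⁅A, B⁆ ≤ N) : A ≤ normalizer ((N ⊔ B : Subgroup X) : Set X) := fun _ ha =>
  mem_normalizer_of_cj_le (cj_sup_le_of_comm hAN h ha)

/-- **class two** -/
theorem comm_dd_le [Finite X] {T : Sylow 2 X} {M V J R : Subgroup X} (h : Dit T M V)
    (hTJ : (T : Subgroup X) ≤ normalizer (J : Set X)) (hJT : J ≤ (T : Subgroup X)) (hVJ : V ≤ J)
    (hJV : J ≤ centralizer (V : Set X)) (hR : R ≤ pCore 2 X)
    (gen : ∀ x : X, x ∉ M → ∀ K : Subgroup X, J ≤ K → cj x J ≤ K → R ≤ K → K = ⊤) :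
    ⁅dd V, uu V⁆ ≤ centralizer ((OO X : Subgroup X) : Set X) := by
  set Q : Subgroup X := pCore 2 X with hQ
  have hQn : Q.Normal := pCore_normal
  have hQT : Q ≤ (T : Subgroup X) := pCore_le T
  set J0 : Subgroup X := J ⊓ Q with hJ0
  have hJ0Q : J0 ≤ Q := inf_le_right
  have hJQ : ⁅J, Q⁆ ≤ J0 := by
    refine le_inf ?_ (commutator_le_right _ _)
    exact comm_le_of_norm (hQT.trans hTJ)
  have hTJ0 : (T : Subgroup X) ≤ normalizer (J0 : Set X) := by
    intro t ht
    rw [mem_normalizer_iff_cj, hJ0, cj_inf, mem_normalizer_iff_cj.1 (hTJ ht), hQ, cj_pCore]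
  have hcjJ0 : ∀ x : X, cj x J0 ≤ Q := by
    intro x
    have := cj_mono x hJ0Q
    rwa [hQ, cj_pCore] at this
  have hQJ0 : ∀ x : X, Q ≤ normalizer ((cj x J0 : Subgroup X) : Set X) := by
    intro x
    have h1 := cj_mono x (hQT.trans hTJ0)
    rwa [hQ, cj_pCore, cj_normalizer] at h1
  -- `J₀ J₀^x` is normal
  have hnorm : ∀ x : X, x ∉ M → (J0 ⊔ cj x J0).Normal := by
    intro x hx
    rw [← normalizer_eq_top_iff]
    refine gen x hx _ ?_ ?_ ?_
    · exact le_normalizer_sup_of_comm (hJT.trans hTJ0) ((commutator_mono le_rfl (hcjJ0 x)).trans hJQ)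
    · have h1 : cj x J ≤ normalizer ((cj x J0 : Subgroup X) : Set X) := by
        rw [← cj_normalizer]
        exact cj_mono x (hJT.trans hTJ0)
      have h2 : ⁅cj x J, J0⁆ ≤ cj x J0 := by
        have h3 := cj_mono x ((commutator_mono (le_refl J) (hcjJ0 x⁻¹)).trans hJQ)
        rwa [cj_commutator, cj_cj_inv] at h3
      rw [sup_comm]
      exact le_normalizer_sup_of_comm h1 h2
    · refine hR.trans ?_
      intro q hq
      refine mem_normalizer_of_cj_le ?_
      rw [cj, Subgroup.map_sup]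
      exact sup_le_sup (mem_normalizer_iff_cj.1 (hTJ0 (hQT hq))).le (mem_normalizer_iff_cj.1 (hQJ0 x hq)).le
  have hDJ0 : dd V ≤ J0 := inf_le_inf_right _ hVJ
  have huu : ∀ x : X, x ∉ M → uu V ≤ J0 ⊔ cj x J0 := by
    intro x hx
    have := hnorm x hx
    exact normalClosure_le_normal (hDJ0.trans le_sup_left)
  -- `[D, U] ≤ J₀^x`
  have hcomm : ∀ x : X, x ∉ M → ⁅dd V, uu V⁆ ≤ cj x J0 := by
    intro x hx
    refine (commutator_mono le_rfl (huu x hx)).trans ?_
    rw [commutator_le]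
    intro d hd u hu
    rw [← SetLike.mem_coe, coe_mul_of_left_le_normalizer_right J0 (cj x J0) (hJ0Q.trans (hQJ0 x))] at hu
    obtain ⟨a, ha, b, hb, rfl⟩ := hu
    have hab : a * d = d * a := (mem_centralizer_iff.1 (hJV (hJ0 ▸ ha : a ∈ J ⊓ Q).1) d hd.1).symm
    have hdQ : d ∈ Q := hd.2
    -- `[d, b] ∈ D ∩ J₀^x`
    have h1 : ⁅d, b⁆ ∈ cj x J0 := by
      have h2 : ⁅cj x J0, Q⁆ ≤ cj x J0 := comm_le_of_norm (hQJ0 x)
      rw [← commutatorElement_inv]
      exact inv_mem (h2 (commutator_mem_commutator hb hdQ))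
    have h2 : ⁅d, b⁆ ∈ V := by
      have h3 : ⁅V, Q⁆ ≤ V := comm_le_of_norm (hQT.trans h.TV)
      exact h3 (commutator_mem_commutator hd.1 (hcjJ0 x hb))
    have h3 : a * ⁅d, b⁆ = ⁅d, b⁆ * a :=
      (mem_centralizer_iff.1 (hJV (hJ0 ▸ ha : a ∈ J ⊓ Q).1) _ h2).symm
    have e : ⁅d, a * b⁆ = ⁅d, b⁆ := by
      have e1 : ⁅d, a * b⁆ = (d * a * d⁻¹ * a⁻¹) * (a * ⁅d, b⁆ * a⁻¹) := by
        rw [commutatorElement_def, commutatorElement_def]; group
      rw [e1, h3, ← hab]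
      group
    change ⁅d, a * b⁆ ∈ _
    rw [e]
    exact h1
  -- the group generated by `V^x`, `x ∉ M`
  set C : Subgroup X := centralizer ((⁅dd V, uu V⁆ : Subgroup X) : Set X) with hC
  have hVC : ∀ x : X, x ∉ M → cj x V ≤ C := by
    intro x hx
    rw [hC, le_centralizer_iff]
    refine (hcomm x hx).trans ?_
    rw [← cj_centralizer]
    exact cj_mono x (inf_le_left.trans hJV)
  rw [le_centralizer_iff]
  set Y : Subgroup X := ⨆ x : {x : X // x ∉ M}, cj (x : X) V with hY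
  have hYC : Y ≤ C := iSup_le fun x => hVC x x.2
  have hTM : (T : Subgroup X) ≤ M := by
    refine h.min.le_of _ le_rfl fun h1 => h.VQ ?_
    have hn : (T : Subgroup X).Normal := by rw [h1]; infer_instance
    exact h.VT.trans (Lib.Cores.le_pCore hn T.isPGroup')
  have hMY : M ≤ normalizer (Y : Set X) := by
    intro m hm
    refine mem_normalizer_of_cj_le ?_
    rw [cj, hY, Subgroup.map_iSup]
    refine iSup_le fun x => ?_
    have h1 : m * (x : X) ∉ M := fun h2 => x.2 ((M.mul_mem_cancel_left hm).1 h2)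
    have h2 : cj m (cj (x : X) V) = cj (m * (x : X)) V := cj_cj m x V
    change cj m (cj (x : X) V) ≤ _
    rw [h2]
    exact le_iSup (fun x : {x : X // x ∉ M} => cj (x : X) V) ⟨m * (x : X), h1⟩
  have hYn : normalizer (Y : Set X) = ⊤ := by
    by_contra hne
    have h1 : normalizer (Y : Set X) ≤ M := h.min.le_of _ (hTM.trans hMY) hne
    have h2 : Y ≤ M := le_normalizer.trans h1
    have h3 : normalClosure (V : Set X) ≤ M := by
      rw [normalClosure, closure_le]
      intro y hy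
      obtain ⟨v, hv, hvy⟩ := Group.mem_conjugatesOfSet_iff.1 hy
      obtain ⟨g, rfl⟩ := isConj_iff.1 hvy
      by_cases hg : g ∈ M
      · exact M.mul_mem (M.mul_mem hg (hTM (h.VT hv))) (M.inv_mem hg)
      · refine h2 ?_
        exact (le_iSup (fun x : {x : X // x ∉ M} => cj (x : X) V) ⟨g, hg⟩) ⟨v, hv, rfl⟩
    apply h.min.ne_top
    rw [eq_top_iff, ← OO_sup T]
    exact sup_le (h.OO_le_ncl.trans h3) hTM
  have hYnormal : Y.Normal := normalizer_eq_top_iff.1 hYn
  obtain ⟨x, hx⟩ : ∃ x : X, x ∉ M := by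
    by_contra hcon
    push Not at hcon
    exact h.min.ne_top (eq_top_iff.2 fun x _ => hcon x)
  have hVY : V ≤ Y := by
    intro v hv
    have h1 : x * v * x⁻¹ ∈ Y :=
      (le_iSup (fun x : {x : X // x ∉ M} => cj (x : X) V) ⟨x, hx⟩) ⟨v, hv, rfl⟩
    have h2 := hYnormal.conj_mem _ h1 x⁻¹
    have e : x⁻¹ * (x * v * x⁻¹) * x⁻¹⁻¹ = v := by group
    rwa [e] at h2
  exact (h.OO_le_ncl.trans (normalClosure_le_normal hVY)).trans hYC

end Cfsg.Agent.QrcE
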