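import Cfsg.Agent.QrcE.Asm
import Cfsg.Agent.QrcE.DRed

/-!
# S1824: the theorem, modulo `ClassTwo`
-/

set_option autoImplicit false
set_option linter.unusedVariables false

namespace Cfsg.Agent.QrcE

open Subgroup Cfsg Cfsg.Agent.MinSimple.MinParabolic Cfsg.Agent.PLocal.ThompsonJ
open Cfsg.Agent.Qrc (Dit)
open Cfsg.Agent.ZN (o2 jj)
open Cfsg.Agent.ZN.ChoiceSit
open Cfsg.Agent.MinSimple.VModule (oddGen)

universe u

variable {G : Type u} [Group G]

theorem cubic_of_not_le [Finite G] (hE : IsOfEvenCharacteristic G) (hFF : Omega.FFBr.AStmt.{u}) (hC : ClassTwo.{u})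
    (T : Sylow 2 G) {M M₀ H V : Subgroup G} (hH : H ∈ calHMin (T : Subgroup G) M)
    (hVM : V ≤ M₀) (hMV : M₀ ≤ normalizer (V : Set G)) (hTM₀ : (T : Subgroup G) ≤ M₀)
    (hVe : IsElementaryAbelian 2 V)
    (hR : o2 M₀ = (T : Subgroup G) ⊓ centralizer (V : Set G)) (hVH : ¬ V ≤ o2 H) :
    CubicParamLE (T : Subgroup G) V 2 := by
  by_contra hno
  have hTH : (T : Subgroup G) ≤ H := hH.1.1.2
  have hHne : o2 H ≠ ⊥ := fun h => hH.1.1.1 ((Subgroup.map_eq_bot_iff_of_injective _ H.subtype_injective).1 h)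
  have hV2 : IsPGroup 2 V := fun x => ⟨1, Subtype.ext (by simpa using hVe.2 x x.2)⟩
  have hVT : V ≤ (T : Subgroup G) := by
    refine (le_o2 hV2 hVM hMV).trans ?_
    rw [hR]
    exact inf_le_left
  have hVle : V ≤ H := hVT.trans hTH
  have hTV : (T : Subgroup G) ≤ normalizer (V : Set G) := hTM₀.trans hMV
  refine d_main hFF hC (X := ↥H) (T := T.subtype hTH) (M := M.subgroupOf H) (V := V.subgroupOf H)
    ⟨isMin_of_calHMin T hH, ?_, fun x hx => hVT hx, ?_, isElementaryAbelian_comap hVe H.subtype_injective, ?_, ?_⟩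
  · intro x hx
    have h1 : (x : G) ∈ centralizer ((o2 H : Subgroup G) : Set G) := by
      rw [mem_centralizer_iff]
      rintro _ ⟨q, hq, rfl⟩
      exact congrArg Subtype.val (mem_centralizer_iff.1 hx q hq)
    obtain ⟨y, hy, hyx⟩ := PushGen.cent_o2 hE T hTH hHne h1
    rwa [← Subtype.ext hyx]
  · intro t ht
    rw [mem_normalizer_iff]
    intro v
    exact mem_normalizer_iff.1 (hTV ht) (v : G)
  · rw [le_o2_iff hVle]
    exact hVH
  · intro h1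
    exact hno (cubic_map hVle h1)

/-- **the qrc-lemma** -/
theorem qrc [Finite G] (hE : IsOfEvenCharacteristic G) (hFF : Omega.FFBr.AStmt.{u}) (hC : ClassTwo.{u})
    (T : Sylow 2 G) {M M₀ H V : Subgroup G}
    (hTM₀ : (T : Subgroup G) ≤ M₀) (hM₀M : M₀ ≤ M) (hH : H ∈ calHMin (T : Subgroup G) M)
    (hVM : V ≤ M₀) (hMV : M₀ ≤ normalizer (V : Set G)) (hVe : IsElementaryAbelian 2 V)
    (hR : o2 M₀ = (T : Subgroup G) ⊓ centralizer (V : Set G))
    (hI : H ⊓ M ≤ normalizer (oddGen M₀ : Set G) ∨ H ⊓ M ≤ normalizer (V : Set G)) :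
    (∃ R₀ : Subgroup G, R₀ ≠ ⊥ ∧ R₀ ≤ o2 M₀ ∧ M₀ ⊔ H ≤ normalizer (R₀ : Set G)) ∨
      (¬ V ≤ o2 H ∧ CubicParamLE M₀ V 2) ∨ QuadParamLE M₀ V 2 :=
  asm hE hFF T hTM₀ hM₀M hH hVM hMV hVe hR hI fun h => cubic_of_not_le hE hFF hC T hH hVM hMV hTM₀ hVe hR h

end Cfsg.Agent.QrcE
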