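import Cfsg.Agent.QrcE.CTwo

/-!
# S1824: `J(T) ≰ C(V)` and `⟨V^X⟩` nonabelian

* `quad_of_AA` : `V ≤ T` elementary abelian, normal in `T`, `A ∈ 𝒜(T)`, `A ≰ C(V)`; then `q(T, V) ≤ 2`;
* `quad_of_pair` : `V` and `V^g` normalise each other, `[V, V^g] ≠ 1`, `V ≤ T ∩ T^g ≥ V^g`: `q(T, V) ≤ 2`;
* `Uel_of` : if the conjugates of `V` commute with `V` then `⟨V^X⟩` is elementary abelian.
-/

set_option autoImplicit false
set_option linter.unusedVariables false

namespace Cfsg.Agent.QrcE

open Subgroup Cfsg Cfsg.Agent.MinSimple.MinParabolic Cfsg.Agent.PLocal.ThompsonJ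
open Cfsg.Agent.ZN.ChoiceBase (AA cj mem_cj cj_mono cj_le_iff cj_inv_cj cj_cj_inv card_cj cj_inf cj_centralizer
  isElementaryAbelian_cj mem_normalizer_iff_cj cj_cj cj_one)
open scoped commutatorElement

universe u

variable {X : Type u} [Group X]

theorem quad_of_AA [Finite X] {T V A : Subgroup X} (hV : IsElementaryAbelian 2 V) (hVT : V ≤ T)
    (hTV : T ≤ normalizer (V : Set X)) (hA : A ∈ AA T) (hne : ¬ A ≤ centralizer (V : Set X)) :
    QuadParamLE T V 2 := by
  have hAn : A ≤ normalizer (V : Set X) := hA.2.1.trans hTV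
  have hbo : IsBestOffenderOn 2 V A := by
    refine ⟨fun B hB => best_of_AA hA hV hVT hB, ?_, ?_⟩
    · rw [commutator_le]
      intro a ha b hb
      have h1 : a * b = b * a := isElementaryAbelian_comm hA.1 ha hb
      rw [commutatorElement_eq_one_iff_mul_comm.2 h1]
      exact one_mem _
    · intro a ha
      rw [isElementaryAbelian_pow hA.1 ha]
      exact one_mem _
  obtain ⟨hb1, -, hb2⟩ := S0599.result V A hV hAn hbo V le_rfl
  set B : Subgroup X := A ⊓ centralizer ((⁅V, A⁆ : Subgroup X) : Set X) with hB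
  have hBA : B ≤ A := inf_le_left
  have hne0 : ⁅V, A⁆ ≠ ⊥ := by
    intro h1
    apply hne
    rwa [commutator_eq_bot_iff_le_centralizer, le_centralizer_iff] at h1
  have hne1 := hb2 hne0
  have hquad : ⁅⁅V, B⁆, B⁆ = ⊥ := by
    rw [commutator_eq_bot_iff_le_centralizer, le_centralizer_iff]
    exact inf_le_right.trans (centralizer_le (SetLike.coe_subset_coe.2 (commutator_mono le_rfl hBA)))
  have hnc : ¬ B ≤ centralizer (V : Set X) := by
    intro h1
    apply hne1
    rwa [commutator_eq_bot_iff_le_centralizer, le_centralizer_iff]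
  refine quadParamLE_of_elem (hBA.trans hA.2.1) (isElementaryAbelian_mono hA.1 hBA) hnc hquad ?_
  have h1 := hb1.1 (B ⊓ centralizer (V : Set X)) inf_le_left
  have h2 : V ⊓ centralizer ((B ⊓ centralizer (V : Set X) : Subgroup X) : Set X) = V :=
    inf_eq_left.2 (le_centralizer_iff.1 inf_le_right)
  rw [h2] at h1
  have h3 : Nat.card ↥(B ⊓ centralizer (V : Set X)) ≤ Nat.card B := card_le_of_le inf_le_left
  calc Nat.card ↥(B ⊓ centralizer (V : Set X)) ^ 2 * Nat.card V
      = Nat.card ↥(B ⊓ centralizer (V : Set X)) * (Nat.card ↥(B ⊓ centralizer (V : Set X)) * Nat.card V) := by ring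
    _ ≤ Nat.card B * (Nat.card B * Nat.card ↥(V ⊓ centralizer (B : Set X))) := Nat.mul_le_mul h3 h1
    _ = _ := by ring

/-- two elementary abelian groups `V`, `W` of the same order normalising each other, `|V : C_V(W)| ≤ |W : C_W(V)|` -/
theorem quad_of_le [Finite X] {T V W : Subgroup X} (hW : IsElementaryAbelian 2 W) (hWT : W ≤ T)
    (hcard : Nat.card V = Nat.card W) (hVW : V ≤ normalizer (W : Set X)) (hWV : W ≤ normalizer (V : Set X))
    (hne : ¬ W ≤ centralizer (V : Set X))
    (hle : Nat.card ↥(W ⊓ centralizer (V : Set X)) ≤ Nat.card ↥(V ⊓ centralizer (W : Set X))) :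
    QuadParamLE T V 2 := by
  have hcW : ⁅V, W⁆ ≤ W := by
    rw [commutator_le]
    intro v hv w hw
    rw [commutatorElement_def]
    exact mul_mem ((mem_normalizer_iff.1 (hVW hv) w).1 hw) (inv_mem hw)
  have hquad : ⁅⁅V, W⁆, W⁆ = ⊥ := by
    rw [comm_eq_bot_iff]
    intro a ha b hb
    exact isElementaryAbelian_comm hW (hcW ha) hb
  refine quadParamLE_of_elem hWT hW hne hquad ?_
  have h3 : Nat.card ↥(W ⊓ centralizer (V : Set X)) ≤ Nat.card W := card_le_of_le inf_le_left
  rw [hcard]
  calc Nat.card ↥(W ⊓ centralizer (V : Set X)) ^ 2 * Nat.card W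
      = Nat.card ↥(W ⊓ centralizer (V : Set X)) * Nat.card W * Nat.card ↥(W ⊓ centralizer (V : Set X)) := by ring
    _ ≤ Nat.card W * Nat.card W * Nat.card ↥(V ⊓ centralizer (W : Set X)) :=
        Nat.mul_le_mul (Nat.mul_le_mul_right _ h3) hle
    _ = _ := by ring

theorem quad_of_pair [Finite X] {T V : Subgroup X} {g : X} (hV : IsElementaryAbelian 2 V)
    (h1 : cj g V ≤ T) (h2 : cj g⁻¹ V ≤ T) (h3 : cj g V ≤ normalizer (V : Set X))
    (h4 : cj g⁻¹ V ≤ normalizer (V : Set X))
    (hne : ¬ cj g V ≤ centralizer (V : Set X)) : QuadParamLE T V 2 := by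
  have e1 : cj g (normalizer (V : Set X)) = normalizer ((cj g V : Subgroup X) : Set X) :=
    ZN.ChoiceBase.cj_normalizer g V
  have e2 : cj g⁻¹ (normalizer (V : Set X)) = normalizer ((cj g⁻¹ V : Subgroup X) : Set X) :=
    ZN.ChoiceBase.cj_normalizer g⁻¹ V
  have h5 : V ≤ normalizer ((cj g V : Subgroup X) : Set X) := by
    rw [← e1]
    have := cj_mono g h4
    rwa [cj_cj_inv] at this
  have h6 : V ≤ normalizer ((cj g⁻¹ V : Subgroup X) : Set X) := by
    rw [← e2]
    have := cj_mono g⁻¹ h3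
    rwa [cj_inv_cj] at this
  rcases le_total (Nat.card ↥(cj g V ⊓ centralizer (V : Set X)))
    (Nat.card ↥(V ⊓ centralizer ((cj g V : Subgroup X) : Set X))) with h | h
  · exact quad_of_le (isElementaryAbelian_cj g hV) h1 (card_cj g V).symm h5 h3 hne h
  · refine quad_of_le (isElementaryAbelian_cj g⁻¹ hV) h2 (card_cj g⁻¹ V).symm h6 h4 ?_ ?_
    · intro hcon
      apply hne
      rw [cj_le_iff, inv_inv, cj_centralizer] at hcon
      exact le_centralizer_iff.1 hcon
    · have e3 : cj g⁻¹ (V ⊓ centralizer ((cj g V : Subgroup X) : Set X)) =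
          cj g⁻¹ V ⊓ centralizer (V : Set X) := by
        rw [cj_inf, cj_centralizer, cj_inv_cj]
      have e4 : cj g⁻¹ (cj g V ⊓ centralizer (V : Set X)) =
          V ⊓ centralizer ((cj g⁻¹ V : Subgroup X) : Set X) := by
        rw [cj_inf, cj_centralizer, cj_inv_cj]
      rw [← e3, ← e4, card_cj, card_cj]
      exact h

/-- if all conjugates of `V` commute with `V` then `⟨V^X⟩` is elementary abelian -/
theorem Uel_of {V : Subgroup X} (hV : IsElementaryAbelian 2 V)
    (h : ∀ g : X, cj g V ≤ centralizer (V : Set X)) : IsElementaryAbelian 2 (normalClosure (V : Set X)) := by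
  have h1 : normalClosure (V : Set X) ≤ centralizer (V : Set X) := by
    rw [normalClosure, closure_le]
    intro y hy
    obtain ⟨v, hv, hvy⟩ := Group.mem_conjugatesOfSet_iff.1 hy
    obtain ⟨g, rfl⟩ := isConj_iff.1 hvy
    exact h g ⟨v, hv, rfl⟩
  have h2 : normalClosure (V : Set X) ≤ centralizer ((normalClosure (V : Set X) : Subgroup X) : Set X) := by
    haveI : (centralizer ((normalClosure (V : Set X) : Subgroup X) : Set X)).Normal := normal_centralizer
    exact normalClosure_le_normal (le_centralizer_iff.1 h1)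
  have hc : ∀ x ∈ normalClosure (V : Set X), ∀ y ∈ normalClosure (V : Set X), x * y = y * x :=
    fun x hx y hy => (mem_centralizer_iff.1 (h2 hx) y hy).symm
  rw [isElementaryAbelian_iff]
  refine ⟨hc, ?_⟩
  intro x hx
  induction hx using Subgroup.closure_induction with
  | mem y hy =>
    obtain ⟨v, hv, hvy⟩ := Group.mem_conjugatesOfSet_iff.1 hy
    obtain ⟨g, rfl⟩ := isConj_iff.1 hvy
    rw [conj_pow, isElementaryAbelian_pow hV hv]
    simp
  | one => simp
  | mul a b ha hb iha ihb =>
    rw [(show Commute a b from hc a ha b hb).mul_pow, iha, ihb, mul_one]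
  | inv a ha iha => rw [inv_pow, iha, inv_one]

end Cfsg.Agent.QrcE
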