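import Cfsg.Agent.QrcE.U

/-!
# S1824: sections `W / D` of a finite group as modules

`D ≤ W` normal subgroups of `X`; `X` acts on `sec D W = W / D` by conjugation (`secAct`).
-/

set_option autoImplicit false
set_option linter.unusedVariables false
set_option linter.unusedSectionVars false
set_option linter.style.haveILetI false

namespace Cfsg.Agent.QrcE

open Subgroup Cfsg Cfsg.Agent.MinSimple.MinParabolic Cfsg.Agent.Omega.FFBr
open Cfsg.Agent.ClassTwoFusion.Quad (cv mem_cv cv_anti)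
open scoped commutatorElement

universe u

variable {X : Type u} [Group X]

/-- the section `W / D` -/
abbrev sec (D W : Subgroup X) [D.Normal] : Type u := ↥(W.map (QuotientGroup.mk' D))

/-- the action on the section -/
@[reducible] def secAct (D W : Subgroup X) [D.Normal] [hW : W.Normal] : MulDistribMulAction X (sec D W) :=
  haveI : (W.map (QuotientGroup.mk' D)).Normal := hW.map _ (QuotientGroup.mk'_surjective D)
  MulDistribMulAction.compHom (sec D W)
    ((MulAut.conjNormal (H := W.map (QuotientGroup.mk' D))).comp (QuotientGroup.mk' D))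

section

variable (D W : Subgroup X) [D.Normal] [W.Normal]

theorem sec_smul_coe (x : X) (w : sec D W) :
    letI := secAct D W
    ((x • w : sec D W) : X ⧸ D) = QuotientGroup.mk' D x * w * (QuotientGroup.mk' D x)⁻¹ := rfl

/-- the class of an element of `W` -/
def cls {W : Subgroup X} (w : W) : sec D W := ⟨QuotientGroup.mk' D w, w, w.2, rfl⟩

theorem exists_cls (v : sec D W) : ∃ w : W, cls D w = v := by
  obtain ⟨_, w, hw, rfl⟩ := v
  exact ⟨⟨w, hw⟩, rfl⟩

theorem cls_eq_iff {w w' : W} : cls D w = cls D w' ↔ (w : X)⁻¹ * w' ∈ D := by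
  rw [Subtype.ext_iff]
  exact QuotientGroup.eq

theorem smul_cls (x : X) (w : W) :
    letI := secAct D W
    x • cls D w = cls D (⟨x * w * x⁻¹, (‹W.Normal›).conj_mem w w.2 x⟩ : W) := rfl

theorem smul_cls_eq_iff (x : X) (w : W) :
    letI := secAct D W
    x • cls D w = cls D w ↔ ⁅x, (w : X)⁆ ∈ D := by
  letI := secAct D W
  rw [smul_cls, cls_eq_iff, commutatorElement_def]
  have hD : D.Normal := inferInstance
  have e1 : (x * (w : X) * x⁻¹)⁻¹ * w = (w : X)⁻¹ * ((w : X) * (x * (w : X)⁻¹ * x⁻¹)) * ((w : X)⁻¹)⁻¹ := by group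
  have e2 : x * (w : X) * x⁻¹ * (w : X)⁻¹ = ((w : X) * (x * (w : X)⁻¹ * x⁻¹))⁻¹ := by group
  change (x * (w : X) * x⁻¹)⁻¹ * w ∈ D ↔ _
  rw [e1, e2, inv_mem_iff]
  constructor
  · intro h
    have := hD.conj_mem _ h (w : X)
    convert this using 1
    group
  · intro h
    exact hD.conj_mem _ h (w : X)⁻¹

theorem mem_ker_sec {x : X} :
    letI := secAct D W
    x ∈ ker X (sec D W) ↔ ∀ w ∈ W, ⁅x, w⁆ ∈ D := by
  letI := secAct D W
  constructor
  · intro h w hw
    exact (smul_cls_eq_iff D W x ⟨w, hw⟩).1 (h _)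
  · intro h v
    obtain ⟨w, rfl⟩ := exists_cls D W v
    exact (smul_cls_eq_iff D W x w).2 (h w w.2)

/-- `C_W(A mod D)` -/
def cW (A : Set X) : Subgroup X where
  carrier := {w | w ∈ W ∧ ∀ a ∈ A, ⁅a, w⁆ ∈ D}
  one_mem' := ⟨one_mem _, fun a _ => by rw [commutatorElement_one_right]; exact one_mem _⟩
  mul_mem' := by
    rintro v w ⟨hv, hv'⟩ ⟨hw, hw'⟩
    refine ⟨mul_mem hv hw, fun a ha => ?_⟩
    have h1 := (smul_cls_eq_iff D W a ⟨v, hv⟩).2 (hv' a ha)
    have h2 := (smul_cls_eq_iff D W a ⟨w, hw⟩).2 (hw' a ha)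
    letI := secAct D W
    refine (smul_cls_eq_iff D W a ⟨v * w, mul_mem hv hw⟩).1 ?_
    have e : cls D (⟨v * w, mul_mem hv hw⟩ : W) = cls D (⟨v, hv⟩ : W) * cls D (⟨w, hw⟩ : W) := rfl
    rw [e, smul_mul', h1, h2]
  inv_mem' := by
    rintro v ⟨hv, hv'⟩
    refine ⟨inv_mem hv, fun a ha => ?_⟩
    have h1 := (smul_cls_eq_iff D W a ⟨v, hv⟩).2 (hv' a ha)
    letI := secAct D W
    refine (smul_cls_eq_iff D W a ⟨v⁻¹, inv_mem hv⟩).1 ?_
    have e : cls D (⟨v⁻¹, inv_mem hv⟩ : W) = (cls D (⟨v, hv⟩ : W))⁻¹ := rfl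
    rw [e, smul_inv', h1]

theorem mem_cW {A : Set X} {w : X} : w ∈ cW D W A ↔ w ∈ W ∧ ∀ a ∈ A, ⁅a, w⁆ ∈ D := Iff.rfl

theorem cW_le (A : Set X) : cW D W A ≤ W := fun _ h => h.1

theorem le_cW (hDW : D ≤ W) (A : Set X) : D ≤ cW D W A := fun d hd => by
  refine ⟨hDW hd, fun a _ => ?_⟩
  rw [commutatorElement_def]
  exact mul_mem ((‹D.Normal›).conj_mem d hd a) (inv_mem hd)

theorem inf_centralizer_le_cW (A : Subgroup X) : W ⊓ centralizer (A : Set X) ≤ cW D W (A : Set X) := by
  rintro w ⟨hw, hw'⟩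
  refine ⟨hw, fun a ha => ?_⟩
  have h1 : ⁅a, w⁆ = 1 := by
    rw [commutatorElement_eq_one_iff_mul_comm]
    exact mem_centralizer_iff.1 hw' a ha
  rw [h1]
  exact one_mem _

theorem index_cv (A : Set X) :
    letI := secAct D W
    (cv (sec D W) A).index = (cW D W A).relIndex W := by
  letI := secAct D W
  let f : W →* sec D W :=
    { toFun := cls D
      map_one' := rfl
      map_mul' := fun _ _ => rfl }
  have hf : Function.Surjective f := exists_cls D W
  have h1 : (cv (sec D W) A).comap f = (cW D W A).subgroupOf W := by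
    ext w
    rw [mem_comap, mem_subgroupOf, mem_cW, mem_cv]
    constructor
    · intro h
      exact ⟨w.2, fun a ha => (smul_cls_eq_iff D W a w).1 (h a ha)⟩
    · rintro ⟨-, h⟩ a ha
      exact (smul_cls_eq_iff D W a w).2 (h a ha)
  rw [← index_comap_of_surjective _ hf, h1]
  rfl

/-- the inequality used for the count of chief factors -/
theorem index_cv_mul [Finite X] (hDW : D ≤ W) (A : Subgroup X) :
    letI := secAct D W
    (cv (sec D W) (A : Set X)).index * (centralizer (A : Set X)).relIndex D ≤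
      (centralizer (A : Set X)).relIndex W := by
  letI := secAct D W
  rw [index_cv, ← inf_relIndex_left W (centralizer (A : Set X)),
    ← relIndex_mul_relIndex _ _ _ (inf_centralizer_le_cW D W A) (cW_le D W (A : Set X)), mul_comm]
  refine Nat.mul_le_mul_right _ ?_
  have h1 : (centralizer (A : Set X)).relIndex D = (W ⊓ centralizer (A : Set X)).relIndex D := by
    rw [← inf_relIndex_right, ← inf_relIndex_right (W ⊓ centralizer (A : Set X))]
    congr 1
    rw [inf_comm (W ⊓ centralizer (A : Set X)), ← inf_assoc, inf_eq_left.2 hDW, inf_comm]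
  rw [h1]
  exact relIndex_le_of_le_right (le_cW D W hDW _) (by
    rw [relIndex]; exact index_ne_zero_of_finite)

/-- `W / D` is a noncentral chief factor -/
structure Chief (D W : Subgroup X) : Prop where
  le : D ≤ W
  sq : ∀ w ∈ W, w * w ∈ D
  irr : ∀ N : Subgroup X, N.Normal → D ≤ N → N ≤ W → N = D ∨ N = W
  nt : ¬ ⁅W, OO X⁆ ≤ D

variable {D W}

/-- `W / D` without proper invariant subgroups -/
theorem irr_sec (hDW : D ≤ W) (hirr : ∀ N : Subgroup X, N.Normal → D ≤ N → N ≤ W → N = D ∨ N = W) :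
    letI := secAct D W
    ∀ N : Subgroup (sec D W), (∀ x : X, ∀ v ∈ N, x • v ∈ N) → N = ⊥ ∨ N = ⊤ := by
  letI := secAct D W
  intro N hN
  let N' : Subgroup X := (N.map (W.map (QuotientGroup.mk' D)).subtype).comap (QuotientGroup.mk' D)
  have hmem : ∀ x : X, x ∈ N' ↔ ∃ v ∈ N, (v : X ⧸ D) = QuotientGroup.mk' D x := fun x => Iff.rfl
  have hD : D ≤ N' := by
    intro d hd
    rw [hmem]
    exact ⟨1, one_mem _, ((QuotientGroup.eq_one_iff d).2 hd).symm⟩
  have hW : N' ≤ W := by
    intro x hx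
    obtain ⟨v, -, hv⟩ := (hmem x).1 hx
    obtain ⟨w, rfl⟩ := exists_cls D W v
    have h1 : (w : X)⁻¹ * x ∈ D := QuotientGroup.eq.1 hv
    have h2 : x = w * ((w : X)⁻¹ * x) := by group
    rw [h2]
    exact mul_mem w.2 (hDW h1)
  have hn : N'.Normal := by
    refine ⟨fun x hx g => ?_⟩
    obtain ⟨v, hv, hvx⟩ := (hmem x).1 hx
    rw [hmem]
    refine ⟨g • v, hN g v hv, ?_⟩
    rw [sec_smul_coe, hvx, map_mul, map_mul, map_inv]
  rcases hirr N' hn hD hW with h1 | h1
  · left
    rw [Subgroup.eq_bot_iff_forall]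
    intro v hv
    obtain ⟨w, rfl⟩ := exists_cls D W v
    have h2 : (w : X) ∈ N' := (hmem _).2 ⟨_, hv, rfl⟩
    rw [h1] at h2
    have e1 : (1 : sec D W) = cls D (1 : W) := rfl
    rw [e1, cls_eq_iff]
    simpa using h2
  · right
    rw [eq_top_iff]
    intro v _
    obtain ⟨w, rfl⟩ := exists_cls D W v
    have h2 : (w : X) ∈ N' := by rw [h1]; exact w.2
    obtain ⟨v', hv', he⟩ := (hmem _).1 h2
    have h3 : v' = cls D w := Subtype.ext he
    rw [← h3]
    exact hv'

theorem sec_sq (hsq : ∀ w ∈ W, w * w ∈ D) (v : sec D W) : v * v = 1 := by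
  obtain ⟨w, rfl⟩ := exists_cls D W v
  have e : cls D w * cls D w = cls D (⟨w * w, mul_mem w.2 w.2⟩ : W) := rfl
  have e1 : (1 : sec D W) = cls D (1 : W) := rfl
  rw [e, e1, cls_eq_iff]
  have := inv_mem (hsq w w.2)
  simpa [mul_inv_rev] using this

theorem Chief.irrMod (h : Chief D W) :
    letI := secAct D W
    IrrMod X (sec D W) := by
  letI := secAct D W
  refine ⟨sec_sq h.sq, irr_sec h.le h.irr, ?_⟩
  by_contra hcon
  push Not at hcon
  apply h.nt
  have h1 : OO X ≤ ker X (sec D W) := OO_le fun x hx v => hcon x hx v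
  rw [commutator_le]
  intro w hw x hx
  have h2 := (mem_ker_sec D W).1 (h1 hx) w hw
  rw [← commutatorElement_inv]
  exact inv_mem h2

/-- a normal elementary abelian 2-subgroup centralised by `O²(X)` has a normal hyperplane -/
theorem exists_hyper [Finite X] (T : Sylow 2 X) {E : Subgroup X} [hE : E.Normal] (hEe : IsElementaryAbelian 2 E)
    (hL : ⁅E, OO X⁆ = ⊥) (hne : E ≠ ⊥) : ∃ H : Subgroup X, H.Normal ∧ H < E ∧
      ∀ x ∈ E, ∀ y ∈ E, x ∉ H → y ∉ H → x * y ∈ H := by
  obtain ⟨H, hH⟩ := (Set.toFinite {H : Subgroup X | H.Normal ∧ H < E}).exists_maximal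
    ⟨⊥, inferInstance, bot_lt_iff_ne_bot.2 hne⟩
  haveI hHn : H.Normal := hH.prop.1
  have hlt := hH.prop.2
  refine ⟨H, hHn, hlt, ?_⟩
  letI := secAct H E
  have hsq : ∀ v : sec H E, v * v = 1 := sec_sq fun w hw => by
    rw [← pow_two, hEe.2 w hw]; exact one_mem _
  have hirr := irr_sec (D := H) (W := E) hlt.le (fun N hN hHN hNE => by
    by_cases h1 : N = E
    · exact Or.inr h1
    · exact Or.inl (le_antisymm (hH.le_of_ge ⟨hN, lt_of_le_of_ne hNE h1⟩ hHN) hHN))
  obtain ⟨e, heE, heH⟩ := SetLike.exists_of_lt hlt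
  have hnt : Nontrivial (sec H E) := by
    refine ⟨cls H (⟨e, heE⟩ : E), cls H (1 : E), fun h1 => heH ?_⟩
    rw [cls_eq_iff] at h1
    simpa using h1
  obtain ⟨v, hv1, hvT⟩ := exists_fixed (X := X) hsq hnt T.isPGroup'
  have hvX : ∀ x : X, x • v = v := by
    have h1 : MulAction.stabilizer X v = ⊤ := by
      rw [eq_top_iff, ← OO_sup T]
      refine sup_le (fun l hl => ?_) fun t ht => hvT t ht
      obtain ⟨w, rfl⟩ := exists_cls H E v
      change l • cls H w = cls H w
      rw [smul_cls_eq_iff]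
      have h2 : ⁅(w : X), l⁆ = 1 := by
        have h3 : ⁅(w : X), l⁆ ∈ ⁅E, OO X⁆ := commutator_mem_commutator w.2 hl
        rwa [hL, mem_bot] at h3
      rw [← commutatorElement_inv, h2, inv_one]
      exact one_mem _
    intro x
    exact (h1 ▸ mem_top x : x ∈ MulAction.stabilizer X v)
  have hz : zpowers v = ⊤ := by
    refine (hirr (zpowers v) fun x w hw => ?_).resolve_left fun h1 => hv1 (zpowers_eq_bot.1 h1)
    obtain ⟨n, rfl⟩ := hw
    change x • v ^ n ∈ _
    rw [smul_zpow', hvX]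
    exact ⟨n, rfl⟩
  have hall : ∀ w : sec H E, w ≠ 1 → w = v := by
    intro w hw
    have h1 : w ∈ zpowers v := by rw [hz]; trivial
    obtain ⟨n, rfl⟩ := h1
    change v ^ n ≠ 1 at hw
    change v ^ n = v
    rcases Int.even_or_odd' n with ⟨m, rfl | rfl⟩
    · exfalso
      apply hw
      rw [zpow_mul, zpow_ofNat, pow_two, hsq, one_zpow]
    · rw [zpow_add, zpow_mul, zpow_ofNat, pow_two, hsq, one_zpow, one_mul, zpow_one]
  intro x hx y hy hxH hyH
  have hne1 : ∀ z (hz : z ∈ E), z ∉ H → cls H (⟨z, hz⟩ : E) ≠ 1 := by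
    intro z hz hzH h1
    apply hzH
    have e1 : (1 : sec H E) = cls H (1 : E) := rfl
    rw [e1, cls_eq_iff] at h1
    simpa using h1
  have h1 := hall _ (hne1 x hx hxH)
  have h2 := hall _ (hne1 y hy hyH)
  have h3 : cls H (⟨x * y, mul_mem hx hy⟩ : E) = 1 := by
    have e : cls H (⟨x * y, mul_mem hx hy⟩ : E) = cls H (⟨x, hx⟩ : E) * cls H (⟨y, hy⟩ : E) := rfl
    rw [e, h1, h2, hsq]
  by_contra h4
  exact hne1 _ _ h4 h3

/-- elementary abelian groups act as such -/
theorem actsElem_of_elem {A : Subgroup X} (hA : IsElementaryAbelian 2 A) :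
    letI := secAct D W
    ActsElem (sec D W) A := by
  letI := secAct D W
  have h := Cfsg.Agent.PLocal.ThompsonJ.isElementaryAbelian_iff.1 hA
  refine ⟨fun a ha b hb v => ?_, fun a ha v => ?_⟩
  · rw [← mul_smul, ← mul_smul, h.1 a ha b hb]
  · rw [← mul_smul, ← pow_two, h.2 a ha, one_smul]

theorem relIndex_ker_sec [Finite X] {T : Sylow 2 X} {M : Subgroup X}
    (hm : IsMin (T : Subgroup X) M) (h : Chief D W) {A : Subgroup X} (hAT : A ≤ (T : Subgroup X)) :
    letI := secAct D W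
    (ker X (sec D W)).relIndex A = (pCore 2 X).relIndex A := by
  letI := secAct D W
  have h1 := h.irrMod.inf_ker hm
  rw [← inf_relIndex_right, ← inf_relIndex_right (pCore 2 X), ← h1, inf_comm _ A, inf_comm _ A, ← inf_assoc,
    inf_eq_left.2 hAT]

theorem not_le_ker_sec [Finite X] {T : Sylow 2 X} {M : Subgroup X}
    (hm : IsMin (T : Subgroup X) M) (h : Chief D W) {A : Subgroup X} (hAT : A ≤ (T : Subgroup X))
    (hA : ¬ A ≤ pCore 2 X) :
    letI := secAct D W
    ¬ A ≤ ker X (sec D W) := by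
  letI := secAct D W
  intro h1
  apply hA
  rw [← h.irrMod.inf_ker hm]
  exact le_inf hAT h1

/-- **no over-offender on a chief factor** -/
theorem noOver_sec (hFF : AStmt.{u}) [Finite X] {T : Sylow 2 X} {M : Subgroup X}
    (hm : IsMin (T : Subgroup X) M) (h : Chief D W) {A : Subgroup X} (hAT : A ≤ (T : Subgroup X))
    (hA : IsElementaryAbelian 2 A) :
    (pCore 2 X).relIndex A * (centralizer (A : Set X)).relIndex D ≤ (centralizer (A : Set X)).relIndex W := by
  letI := secAct D W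
  have h1 := h.irrMod.noOver hFF hm (actsElem_of_elem (D := D) (W := W) hA)
  rw [relIndex_ker_sec hm h hAT] at h1
  exact (Nat.mul_le_mul_right _ h1).trans (index_cv_mul D W h.le A)

/-- **LEMMA U for a section** -/
theorem lemU_sec (hFF : AStmt.{u}) [Finite X] {T : Sylow 2 X} {M : Subgroup X}
    (hm : IsMin (T : Subgroup X) M) (h : Chief D W) {A C : Subgroup X} (hAT : A ≤ (T : Subgroup X))
    (hA : IsElementaryAbelian 2 A) (hne : ¬ A ≤ pCore 2 X)
    (hle : (cW D W (A : Set X)).relIndex W ≤ (pCore 2 X).relIndex A)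
    (hC : M ≤ normalizer (C : Set X)) (hAC : A ≤ C) :
    letI := secAct D W
    (T : Subgroup X) ⊓ OO X ≤ ⁅C, OO X ⊓ M⁆ ⊔ ker X (sec D W) := by
  letI := secAct D W
  refine lemU hFF hm h.irrMod hAT (actsElem_of_elem hA) (not_le_ker_sec hm h hAT hne) ?_ hC hAC
  rw [index_cv, relIndex_ker_sec hm h hAT]
  exact hle

end

end Cfsg.Agent.QrcE
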