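import Cfsg.Agent.QrcE.Nab
import Cfsg.Agent.PushGen.Red

/-!
# S1824: between `G` and a subgroup `H`
-/

set_option autoImplicit false
set_option linter.unusedVariables false
set_option linter.style.haveILetI false

namespace Cfsg.Agent.QrcE

open Subgroup Cfsg Cfsg.Agent.MinSimple.MinParabolic Cfsg.Agent.PLocal.ThompsonJ
open Cfsg.Agent.ZN (o2 jj)
open Cfsg.Agent.ZN.ChoiceSit
open Cfsg.Agent.ZN.ChoiceBase (AA cj mem_cj cj_mono cj_le_iff cj_inv_cj cj_cj_inv card_cj cj_inf cj_centralizer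
  isElementaryAbelian_cj mem_normalizer_iff_cj cj_cj cj_one)
open Cfsg.Agent.MinSimple.VModule (oddGen mem_oddGen oddGen_le le_normalizer_oddGen)
open scoped commutatorElement

universe u

variable {G : Type u} [Group G]

theorem comap_centralizer_map {H : Subgroup G} (W : Subgroup H) :
    (centralizer ((W.map H.subtype : Subgroup G) : Set G)).comap H.subtype = centralizer (W : Set H) := by
  ext x
  simp only [mem_comap, mem_centralizer_iff]
  constructor
  · intro h y hy
    exact Subtype.ext (h y ⟨y, hy, rfl⟩)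
  · rintro h _ ⟨y, hy, rfl⟩
    exact congrArg Subtype.val (h y hy)

theorem centralizer_subgroupOf {H V : Subgroup G} (hVH : V ≤ H) :
    centralizer ((V.subgroupOf H : Subgroup H) : Set H) = (centralizer (V : Set G)).subgroupOf H := by
  rw [← comap_centralizer_map, map_subgroupOf_eq_of_le hVH]
  rfl

theorem map_le_centralizer_iff {H : Subgroup G} {B W : Subgroup H} :
    B.map H.subtype ≤ centralizer ((W.map H.subtype : Subgroup G) : Set G) ↔ B ≤ centralizer (W : Set H) := by
  rw [map_le_iff_le_comap, comap_centralizer_map]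

theorem quad_map {H T V : Subgroup G} {r : ℕ} (hVH : V ≤ H)
    (h : QuadParamLE (T.subgroupOf H) (V.subgroupOf H) r) : QuadParamLE T V r := by
  obtain ⟨B, hBT, ⟨h1, h2, h3⟩, h4, h5⟩ := h
  set W : Subgroup H := V.subgroupOf H with hW
  have hV : V = W.map H.subtype := (map_subgroupOf_eq_of_le hVH).symm
  refine ⟨B.map H.subtype, ?_, ⟨?_, ?_, ?_⟩, ?_, ?_⟩
  · rw [map_le_iff_le_comap]; exact hBT
  · rw [hV, map_le_centralizer_iff]; exact h1
  · rintro _ ⟨b, hb, rfl⟩
    have := h2 b hb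
    rw [← comap_centralizer_map, ← hV] at this
    exact this
  · rintro _ ⟨b, hb, rfl⟩ _ ⟨c, hc, rfl⟩
    have := h3 b hb c hc
    rw [← comap_centralizer_map, ← hV] at this
    exact this
  · rw [hV, ← map_commutator, ← map_commutator, h4, Subgroup.map_bot]
  · have e1 : (V ⊓ centralizer ((B.map H.subtype : Subgroup G) : Set G)).relIndex V =
        (W ⊓ centralizer (B : Set H)).relIndex W := by
      conv_lhs => rw [hV]
      rw [← relIndex_comap, Subgroup.comap_inf, comap_centralizer_map,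
        comap_map_eq_self_of_injective H.subtype_injective]
    have e2 : (centralizer (V : Set G)).relIndex (B.map H.subtype) = (centralizer (W : Set H)).relIndex B := by
      rw [← relIndex_comap, hV, comap_centralizer_map]
    rw [e1, e2]
    exact h5

theorem quad_mono {X Y V : Subgroup G} {r : ℕ} (hXY : X ≤ Y) (h : QuadParamLE X V r) : QuadParamLE Y V r := by
  obtain ⟨B, hB, h1⟩ := h
  exact ⟨B, hB.trans hXY, h1⟩

theorem cubic_mono {X Y V : Subgroup G} {r : ℕ} (hXY : X ≤ Y) (h : CubicParamLE X V r) : CubicParamLE Y V r := by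
  obtain ⟨B, hB, h1⟩ := h
  exact ⟨B, hB.trans hXY, h1⟩

theorem mem_AA_sub {H T : Subgroup G} (hTH : T ≤ H) {A : Subgroup H} :
    A ∈ AA (T.subgroupOf H) ↔ A.map H.subtype ∈ AA T := by
  constructor
  · rintro ⟨h1, h2, h3⟩
    refine ⟨isElementaryAbelian_map h1 _, ?_, fun B hB hBT => ?_⟩
    · rw [map_le_iff_le_comap]; exact h2
    · rw [card_map_injective _ H.subtype_injective]
      have h4 := h3 (B.subgroupOf H) (isElementaryAbelian_comap hB H.subtype_injective) (fun x hx => hBT hx)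
      rwa [Nat.card_congr (Subgroup.subgroupOfEquivOfLe (hBT.trans hTH)).toEquiv] at h4
  · rintro ⟨h1, h2, h3⟩
    refine ⟨?_, fun x hx => h2 ⟨x, hx, rfl⟩, fun B hB hBT => ?_⟩
    · have := isElementaryAbelian_comap h1 H.subtype_injective
      rwa [comap_map_eq_self_of_injective H.subtype_injective] at this
    · have h4 := h3 (B.map H.subtype) (isElementaryAbelian_map hB _) (by
        rw [map_le_iff_le_comap]; exact hBT)
      rwa [card_map_injective _ H.subtype_injective, card_map_injective _ H.subtype_injective] at h4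

theorem OO_map (H : Subgroup G) : (OO ↥H).map H.subtype = oddGen H := by
  rw [OO, MonoidHom.map_closure, oddGen]
  congr 1
  ext x
  constructor
  · rintro ⟨y, hy, rfl⟩
    exact ⟨y.2, by simpa using hy⟩
  · rintro ⟨h1, h2⟩
    exact ⟨⟨x, h1⟩, by simpa using h2, rfl⟩

theorem le_o2_iff {H V : Subgroup G} (hVH : V ≤ H) : V.subgroupOf H ≤ pCore 2 ↥H ↔ V ≤ o2 H := by
  constructor
  · intro h v hv
    exact ⟨⟨v, hVH hv⟩, h hv, rfl⟩
  · intro h v hv
    obtain ⟨y, hy, hyv⟩ := h hv
    rwa [← Subtype.ext hyv]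

theorem normal_subgroupOf_iff' {H V : Subgroup G} (hVH : V ≤ H) :
    (V.subgroupOf H).Normal ↔ H ≤ normalizer (V : Set G) := by
  constructor
  · intro h x hx
    rw [mem_normalizer_iff]
    intro v
    constructor
    · intro hv
      exact h.conj_mem ⟨v, hVH hv⟩ hv ⟨x, hx⟩
    · intro hv
      have h1 := h.conj_mem ⟨x * v * x⁻¹, hVH hv⟩ hv ⟨x⁻¹, inv_mem hx⟩
      have h2 : x⁻¹ * (x * v * x⁻¹) * x⁻¹⁻¹ = v := by group
      change x⁻¹ * (x * v * x⁻¹) * x⁻¹⁻¹ ∈ V at h1
      rwa [h2] at h1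
  · intro h
    refine ⟨fun v hv x => ?_⟩
    exact (mem_normalizer_iff.1 (h x.2) v).1 hv

/-- the Sylow condition of S1823 -/
theorem syl_of_inf_le [Finite G] {T R H : Subgroup G} (hT : Syl T H) (hRT : R ≤ T)
    (hTR : T ≤ normalizer (R : Set G))
    (h : T ⊓ oddGen H ≤ R) : Syl R (oddGen H ⊔ R) := by
  have hRH : R ≤ H := hRT.trans hT.1
  have hNH : oddGen H ≤ H := oddGen_le H
  have hRN : R ≤ normalizer (oddGen H : Set G) := hRH.trans (le_normalizer_oddGen H)
  refine ⟨le_sup_right, hT.2.1.to_le hRT, fun P hP hP2 hRP => ?_⟩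
  have hPH : P ≤ H := hP.trans (sup_le hNH hRH)
  -- conjugate `P` into `T`
  obtain ⟨S, hS, hPS⟩ := exists_syl hP2 hPH
  obtain ⟨x, hx, hxS⟩ := syl_conj hS hT
  have hN : cj x (oddGen H) = oddGen H := mem_normalizer_iff_cj.1 (le_normalizer_oddGen H hx)
  have h1 : cj x (P ⊓ oddGen H) ≤ T ⊓ oddGen H := by
    rw [cj_inf, hN]
    exact inf_le_inf_right _ ((cj_mono x hPS).trans hxS.le)
  have h2 : Nat.card ↥(P ⊓ oddGen H) ≤ Nat.card ↥(R ⊓ oddGen H) := by
    rw [← card_cj x]
    exact card_le_of_le (h1.trans (le_inf h inf_le_right))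
  have h3 : R ⊓ oddGen H = P ⊓ oddGen H :=
    eq_of_le_of_card_ge (inf_le_inf_right _ hRP) h2
  refine le_antisymm ?_ hRP
  intro p hp
  have hp1 : p ∈ R ⊔ oddGen H := by rw [sup_comm]; exact hP hp
  rw [← SetLike.mem_coe, coe_mul_of_left_le_normalizer_right R (oddGen H) hRN] at hp1
  obtain ⟨r, hr, n, hn, hrn⟩ := hp1
  have hnP : n ∈ P ⊓ oddGen H := by
    refine ⟨?_, hn⟩
    have : n = r⁻¹ * p := by rw [← hrn]; group
    rw [this]
    exact P.mul_mem (P.inv_mem (hRP hr)) hp
  rw [← h3] at hnP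
  rw [← hrn]
  exact R.mul_mem hr hnP.1

end Cfsg.Agent.QrcE
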