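import Cfsg.Agent.QrcE.Irr
import Cfsg.Agent.Omega.NO3b.Exit.TenFF

/-!
# S1824: `T ∩ O²(X) ≤ [C, O²(X) ∩ M]` when the module is a sum of even-subset modules of `S_{2^m+1}`

`C` is a subgroup normalised by `M` which contains an offender `A ≤ T`.
-/

set_option autoImplicit false
set_option linter.unusedVariables false
set_option linter.unusedSectionVars false
set_option linter.style.haveILetI false

namespace Cfsg.Agent.QrcE.USym

open Subgroup Cfsg Cfsg.Agent.Omega.FFBr Cfsg.Agent.QrcE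
open Cfsg.Agent.Omega.NO3b.Exit.TenFF (sym_one sym_inv sym_br acts_mul acts_inv)
open Cfsg.Agent.ClassTwoFusion.Quad (cv mem_cv cv_anti)
open scoped commutatorElement

universe u

variable {Y V : Type u} [Group Y] [Group V] [MulDistribMulAction Y V]

section

variable {T : Sylow 2 Y} {M : Subgroup Y} {k m : ℕ}

/-! ### Products -/

section prod

variable {n : ℕ} {e : V → Fin k → Fin n → ZMod 2}

theorem one_acts : AActsSym e (1 : Y) 1 fun _ => 1 := fun v i x => by rw [one_smul]; rfl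

theorem mul_acts {g h : Y} {τ ρ : Fin k → Equiv.Perm (Fin n)} (hg : AActsSym e g 1 τ) (hh : AActsSym e h 1 ρ) :
    AActsSym e (g * h) 1 fun i => τ i * ρ i := fun v i x => by
  rw [mul_smul, Equiv.Perm.mul_apply, Equiv.Perm.one_apply]
  have h1 := hg (h • v) i (ρ i x)
  rw [Equiv.Perm.one_apply] at h1
  rw [h1]
  exact hh v i x

theorem inv_acts {g : Y} {τ : Fin k → Equiv.Perm (Fin n)} (hg : AActsSym e g 1 τ) :
    AActsSym e g⁻¹ 1 fun i => (τ i)⁻¹ := fun v i x => by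
  have h1 := hg (g⁻¹ • v) i ((τ i)⁻¹ x)
  rw [smul_inv_smul, Equiv.Perm.one_apply, show τ i ((τ i)⁻¹ x) = x from (τ i).apply_symm_apply x] at h1
  exact h1.symm

theorem pow_acts {g : Y} {τ : Fin k → Equiv.Perm (Fin n)} (hg : AActsSym e g 1 τ) (r : ℕ) :
    AActsSym e (g ^ r) 1 fun i => τ i ^ r := by
  induction r with
  | zero => simpa using one_acts (Y := Y) (e := e)
  | succ r ih =>
    simp only [pow_succ]
    exact mul_acts ih hg

/-- conjugation by an element which permutes the blocks -/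
theorem conj_acts {g h : Y} {σ : Equiv.Perm (Fin k)} {τ ρ : Fin k → Equiv.Perm (Fin n)} (hg : AActsSym e g σ τ)
    (hh : AActsSym e h 1 ρ) :
    AActsSym e (g * h * g⁻¹) 1 fun i => τ (σ⁻¹ i) * ρ (σ⁻¹ i) * (τ (σ⁻¹ i))⁻¹ := fun v i x => by
  have e1 : σ (σ⁻¹ i) = i := σ.apply_symm_apply i
  set j := σ⁻¹ i with hj
  have h1 := hg (h • g⁻¹ • v) j (ρ j ((τ j)⁻¹ x))
  have h2 := hh (g⁻¹ • v) j ((τ j)⁻¹ x)
  have h3 := hg (g⁻¹ • v) j ((τ j)⁻¹ x)
  rw [smul_inv_smul, show τ j ((τ j)⁻¹ x) = x from (τ j).apply_symm_apply x, e1] at h3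
  rw [Equiv.Perm.one_apply] at h2
  rw [e1, h2, ← h3] at h1
  rw [Equiv.Perm.one_apply, mul_smul, mul_smul, Equiv.Perm.mul_apply, Equiv.Perm.mul_apply]
  exact h1

end prod

/-! ### Uniqueness -/

variable (N : AbsSym (T : Subgroup Y) V k m)

theorem exists_third {n : ℕ} (hn : 3 ≤ n) (x y : Fin n) : ∃ z : Fin n, z ≠ x ∧ z ≠ y := by
  have hc : ({x, y} : Finset (Fin n)).card < Fintype.card (Fin n) := by
    refine (Finset.card_le_two).trans_lt ?_
    rw [Fintype.card_fin]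
    omega
  obtain ⟨z, hz⟩ := Finset.exists_mem_notMem_of_card_lt_card (s := {x, y}) (t := Finset.univ) hc
  refine ⟨z, ?_⟩
  simpa using hz

theorem three_le (hm : 2 ≤ m) : 3 ≤ 2 ^ m + 1 := by
  have : 2 ^ 2 ≤ 2 ^ m := Nat.pow_le_pow_right (by norm_num) hm
  omega

/-- a vector with a single nonzero block `{x, z}` -/
theorem exists_vec (i : Fin k) (x z : Fin (2 ^ m + 1)) :
    ∃ v : V, N.e v = Pi.single i (Pi.single x 1 + Pi.single z 1) := by
  refine N.surj _ fun j => ?_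
  by_cases hj : j = i
  · subst hj
    rw [Pi.single_eq_same]
    simp only [Pi.add_apply, Finset.sum_add_distrib, Finset.sum_pi_single']
    simp
    decide
  · rw [Pi.single_eq_of_ne hj]
    simp

/-- the permutation of the points is determined -/
theorem acts_unique (hm : 2 ≤ m) {g : Y} {σ : Equiv.Perm (Fin k)} {τ ρ : Fin k → Equiv.Perm (Fin (2 ^ m + 1))}
    (h : AActsSym N.e g σ τ) (h' : AActsSym N.e g 1 ρ) (i : Fin k) : σ i = i ∧ τ i = ρ i := by
  have key : ∀ v x, N.e v (σ i) ((ρ (σ i))⁻¹ (τ i x)) = N.e v i x := by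
    intro v x
    have h1 := h v i x
    have h2 := h' v (σ i) ((ρ (σ i))⁻¹ (τ i x))
    rw [Equiv.Perm.one_apply, show ρ (σ i) ((ρ (σ i))⁻¹ (τ i x)) = τ i x from (ρ (σ i)).apply_symm_apply _] at h2
    rw [← h2]
    exact h1
  have hσ : σ i = i := by
    by_contra hne
    obtain ⟨z, hz, -⟩ := exists_third (three_le hm) 0 0
    obtain ⟨v, hv⟩ := exists_vec N i 0 z
    have h1 := key v 0
    rw [hv, Pi.single_eq_of_ne hne, Pi.single_eq_same, Pi.zero_apply, Pi.add_apply, Pi.single_eq_same,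
      Pi.single_eq_of_ne hz.symm] at h1
    simp at h1
  refine ⟨hσ, ?_⟩
  ext1 x
  rw [hσ] at key
  by_contra hne
  set y := (ρ i)⁻¹ (τ i x) with hy
  have hyx : y ≠ x := by
    intro h1
    apply hne
    have h2 : τ i x = ρ i y := ((ρ i).apply_symm_apply _).symm
    rw [h2, h1]
  obtain ⟨z, hzx, hzy⟩ := exists_third (three_le hm) x y
  obtain ⟨v, hv⟩ := exists_vec N i x z
  have h1 := key v x
  rw [← hy, hv, Pi.single_eq_same, Pi.add_apply, Pi.add_apply, Pi.single_eq_same, Pi.single_eq_of_ne hyx,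
    Pi.single_eq_of_ne hzy.symm, Pi.single_eq_of_ne hzx.symm] at h1
  simp at h1

/-- the element is determined -/
theorem eq_one_of_acts (hA : Abs Y V T M) (ho : odd Y V = ⊥) {g : Y} (h : AActsSym N.e g 1 fun _ => 1) : g = 1 := by
  refine hA.faith g fun v => ?_
  have h1 : N.e (g • v * v⁻¹) = 0 := by
    rw [sym_br, sub_eq_zero]
    funext i x
    exact h v i x
  rw [N.ker, ho, mem_bot, mul_inv_eq_one] at h1
  exact h1

theorem elt_unique (hA : Abs Y V T M) (ho : odd Y V = ⊥) {g h : Y} {τ : Fin k → Equiv.Perm (Fin (2 ^ m + 1))}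
    (hg : AActsSym N.e g 1 τ) (hh : AActsSym N.e h 1 τ) : g = h := by
  have h1 := mul_acts hg (inv_acts hh)
  have h2 : (fun i => τ i * (τ i)⁻¹) = fun _ => 1 := by funext i; exact mul_inv_cancel _
  rw [h2] at h1
  exact mul_inv_eq_one.1 (eq_one_of_acts N hA ho h1)

/-! ### `O²(Y)` acts by even permutations -/

/-- the group `(S_{2^m+1})^k` -/
def EE (N : AbsSym (T : Subgroup Y) V k m) : Subgroup Y where
  carrier := {g | ∃ τ, AActsSym N.e g 1 τ}
  one_mem' := ⟨_, one_acts⟩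
  mul_mem' := by
    rintro a b ⟨A, hA⟩ ⟨B, hB⟩
    exact ⟨_, mul_acts hA hB⟩
  inv_mem' := by
    rintro a ⟨A, hA⟩
    exact ⟨_, inv_acts hA⟩

theorem EE_normal : (EE N).Normal := by
  refine ⟨?_⟩
  rintro h ⟨ρ, hρ⟩ g
  obtain ⟨σ, τ, hg⟩ := N.perm g
  exact ⟨_, conj_acts hg hρ⟩

theorem OO_le_EE : OO Y ≤ EE N := by
  haveI := EE_normal N
  exact OO_le_of_sup T.isPGroup' (N.gen _ le_sup_right fun h A hA _ => mem_sup_left ⟨A, hA⟩)

theorem sign_of_OO [Finite Y] (hm : 2 ≤ m) {t : Y} (ht : t ∈ OO Y) {τ : Fin k → Equiv.Perm (Fin (2 ^ m + 1))}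
    (h : AActsSym N.e t 1 τ) (i : Fin k) : Equiv.Perm.sign (τ i) = 1 := by
  let E2 : Subgroup Y :=
    { carrier := {g | ∃ τ, AActsSym N.e g 1 τ ∧ ∀ i, Equiv.Perm.sign (τ i) = 1}
      one_mem' := ⟨_, one_acts, fun i => map_one _⟩
      mul_mem' := by
        rintro g h ⟨A, hA, hA'⟩ ⟨B, hB, hB'⟩
        exact ⟨_, mul_acts hA hB, fun i => by rw [map_mul, hA', hB', mul_one]⟩
      inv_mem' := by
        rintro g ⟨A, hA, hA'⟩
        exact ⟨_, inv_acts hA, fun i => by rw [map_inv, hA', inv_one]⟩ }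
  have hle : OO Y ≤ E2 := by
    refine OO_le fun x hx => ?_
    obtain ⟨τ, hτ⟩ := OO_le_EE N (mem_OO hx)
    refine ⟨τ, hτ, fun i => ?_⟩
    have h1 := pow_acts hτ (orderOf x)
    rw [pow_orderOf_eq_one] at h1
    have h2 : τ i ^ orderOf x = 1 := (acts_unique N hm h1 one_acts i).2
    have h3 : Equiv.Perm.sign (τ i) ^ orderOf x = 1 := by rw [← map_pow, h2, map_one]
    rcases Int.units_eq_one_or (Equiv.Perm.sign (τ i)) with h4 | h4
    · exact h4
    · rw [h4, hx.neg_one_pow] at h3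
      exact absurd h3 (by decide)
  obtain ⟨ρ, hρ, hρ'⟩ := hle ht
  rw [(acts_unique N hm h hρ i).2]
  exact hρ' i

/-! ### The stabiliser of the points `0` -/

theorem mem_of_fix0 (hA : Abs Y V T M) (hk : 0 < k) (hm : 2 ≤ m) {g : Y} {σ : Equiv.Perm (Fin k)}
    {τ : Fin k → Equiv.Perm (Fin (2 ^ m + 1))} (h : AActsSym N.e g σ τ) (h0 : ∀ i, τ i 0 = 0) : g ∈ M := by
  let K : Subgroup Y :=
    { carrier := {g | ∃ σ τ, AActsSym N.e g σ τ ∧ ∀ i, τ i 0 = 0}
      one_mem' := ⟨1, fun _ => 1, fun v i x => by rw [one_smul]; rfl, fun i => rfl⟩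
      mul_mem' := by
        rintro g g' ⟨σ, τ, h1, h2⟩ ⟨σ', τ', h1', h2'⟩
        exact ⟨_, _, acts_mul h1 h1', fun i => by rw [Equiv.Perm.mul_apply, h2', h2]⟩
      inv_mem' := by
        rintro g ⟨σ, τ, h1, h2⟩
        refine ⟨_, _, acts_inv h1, fun i => ?_⟩
        rw [Equiv.Perm.inv_eq_iff_eq]
        exact (h2 _).symm }
  have hKT : (T : Subgroup Y) ≤ K := fun t ht => by
    obtain ⟨σ, τ, h1⟩ := N.perm t
    exact ⟨σ, τ, h1, N.fix0 t ht σ τ h1⟩
  have hKne : K ≠ ⊤ := by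
    intro h1
    obtain ⟨z, hz, -⟩ := exists_third (three_le hm) 0 0
    obtain ⟨g, hg, -⟩ := N.lift fun _ => Equiv.swap 0 z
    obtain ⟨σ', τ', h2, h3⟩ : g ∈ K := by rw [h1]; trivial
    have h4 := (acts_unique N hm h2 hg ⟨0, hk⟩).2
    have h5 := h3 ⟨0, hk⟩
    rw [h4, Equiv.swap_apply_left] at h5
    exact hz h5
  exact (hA.max K hKT).resolve_right hKne ⟨σ, τ, h, h0⟩

/-- `g` acts on the block `j` by `ρ`, trivially on the others -/
abbrev Blk (N : AbsSym (T : Subgroup Y) V k m) (g : Y) (j : Fin k) (ρ : Equiv.Perm (Fin (2 ^ m + 1))) : Prop :=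
  AActsSym N.e g 1 (Function.update 1 j ρ)

theorem blk_conj {g h : Y} {σ : Equiv.Perm (Fin k)} {τ : Fin k → Equiv.Perm (Fin (2 ^ m + 1))} {j : Fin k}
    {ρ : Equiv.Perm (Fin (2 ^ m + 1))} (hg : AActsSym N.e g σ τ) (hh : Blk N h j ρ) :
    Blk N (g * h * g⁻¹) (σ j) (τ j * ρ * (τ j)⁻¹) := by
  have h1 := conj_acts hg hh
  have h2 : (fun i => τ (σ⁻¹ i) * Function.update (1 : Fin k → Equiv.Perm (Fin (2 ^ m + 1))) j ρ (σ⁻¹ i) *
      (τ (σ⁻¹ i))⁻¹) = Function.update (1 : Fin k → Equiv.Perm (Fin (2 ^ m + 1))) (σ j) (τ j * ρ * (τ j)⁻¹) := by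
    funext i
    by_cases hi : i = σ j
    · have h3 : σ⁻¹ i = j := by rw [hi]; exact σ.symm_apply_apply j
      rw [h3, Function.update_self, hi, Function.update_self]
    · have h3 : σ⁻¹ i ≠ j := by
        intro h4
        apply hi
        rw [← h4]
        exact (σ.apply_symm_apply i).symm
      rw [Function.update_of_ne h3, Function.update_of_ne hi, Pi.one_apply, Pi.one_apply, mul_one, mul_inv_cancel]
  rwa [h2] at h1

theorem blk_mul {g h : Y} {j : Fin k} {ρ ρ' : Equiv.Perm (Fin (2 ^ m + 1))} (hg : Blk N g j ρ) (hh : Blk N h j ρ') :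
    Blk N (g * h) j (ρ * ρ') := by
  have h1 := mul_acts hg hh
  have h2 : (fun i => Function.update (1 : Fin k → Equiv.Perm (Fin (2 ^ m + 1))) j ρ i *
      Function.update (1 : Fin k → Equiv.Perm (Fin (2 ^ m + 1))) j ρ' i) =
      Function.update (1 : Fin k → Equiv.Perm (Fin (2 ^ m + 1))) j (ρ * ρ') := by
    funext i
    by_cases hi : i = j
    · subst hi; rw [Function.update_self, Function.update_self, Function.update_self]
    · rw [Function.update_of_ne hi, Function.update_of_ne hi, Function.update_of_ne hi, Pi.one_apply, mul_one]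
  rwa [h2] at h1

theorem blk_inv {g : Y} {j : Fin k} {ρ : Equiv.Perm (Fin (2 ^ m + 1))} (hg : Blk N g j ρ) :
    Blk N g⁻¹ j ρ⁻¹ := by
  have h1 := inv_acts hg
  have h2 : (fun i => (Function.update (1 : Fin k → Equiv.Perm (Fin (2 ^ m + 1))) j ρ i)⁻¹) =
      Function.update (1 : Fin k → Equiv.Perm (Fin (2 ^ m + 1))) j ρ⁻¹ := by
    funext i
    by_cases hi : i = j
    · subst hi; rw [Function.update_self, Function.update_self]
    · rw [Function.update_of_ne hi, Function.update_of_ne hi, Pi.one_apply, inv_one]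
  rwa [h2] at h1

theorem blk_one {j : Fin k} : Blk N (1 : Y) j 1 := by
  have h2 : Function.update (1 : Fin k → Equiv.Perm (Fin (2 ^ m + 1))) j 1 = fun _ => 1 := Function.update_eq_self j _
  have := one_acts (Y := Y) (e := N.e)
  rwa [← h2] at this

theorem exists_blk (j : Fin k) (ρ : Equiv.Perm (Fin (2 ^ m + 1))) : ∃ g : Y, Blk N g j ρ := by
  obtain ⟨g, hg, -⟩ := N.lift (Function.update 1 j ρ)
  exact ⟨g, hg⟩

/-- `C` contains all the transpositions -/
theorem swap_mem (hA : Abs Y V T M) (ho : odd Y V = ⊥) (hk : 0 < k) (hm : 2 ≤ m) {A C : Subgroup Y}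
    (hAT : A ≤ (T : Subgroup Y)) (hoff : AOff V A) (hC : M ≤ normalizer (C : Set Y)) (hAC : A ≤ C)
    (j : Fin k) {y y' : Fin (2 ^ m + 1)} (hyy : y ≠ y') (hy0 : y ≠ 0) (hy0' : y' ≠ 0) :
    ∃ c ∈ C, Blk N c j (Equiv.swap y y') := by
  obtain ⟨-, hoff2⟩ := N.off A hAT hoff
  obtain ⟨a, ha, ha1⟩ : ∃ a ∈ A, a ≠ 1 := by
    by_contra hcon
    push Not at hcon
    exact hoff.ne ((Subgroup.eq_bot_iff_forall _).2 hcon)
  obtain ⟨τ, hτ, hτ2⟩ := hoff2 a ha
  obtain ⟨i, x, hx⟩ : ∃ i x, τ i x ≠ x := by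
    by_contra hcon
    push Not at hcon
    apply ha1
    refine eq_one_of_acts N hA ho ?_
    have : τ = fun _ => 1 := by
      funext i
      exact Equiv.ext fun x => hcon i x
    rwa [this] at hτ
  obtain ⟨-, b, hb, hbact⟩ := hτ2 i x hx
  set x' := τ i x with hx'
  -- move the block `i` to `j`
  obtain ⟨t, ht, σ, τ', hact, hσ⟩ := N.trans i j
  have h1 := blk_conj N hact hbact
  have hn1 : t ∈ normalizer (C : Set Y) := hC (hA.TM ht)
  have hc1 : t * b * t⁻¹ ∈ C := (mem_normalizer_iff.1 hn1 b).1 (hAC hb)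
  have hT1 : t * b * t⁻¹ ∈ (T : Subgroup Y) := mul_mem (mul_mem ht (hAT hb)) (inv_mem ht)
  rw [hσ] at h1
  have e1 : τ' i * Equiv.swap x x' * (τ' i)⁻¹ = Equiv.swap (τ' i x) (τ' i x') := by
    rw [Equiv.swap_apply_apply]
  rw [e1] at h1
  set z := τ' i x with hz
  set z' := τ' i x' with hz'
  have hzz : z ≠ z' := fun h2 => hx ((τ' i).injective h2).symm
  -- both are not `0`
  have h0 := N.fix0 _ hT1 1 _ h1 j
  rw [Function.update_self] at h0
  have hz0 : z ≠ 0 := by
    intro h2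
    rw [← h2, Equiv.swap_apply_left] at h0
    exact hzz h0.symm
  have hz0' : z' ≠ 0 := by
    intro h2
    rw [← h2, Equiv.swap_apply_right] at h0
    exact hzz h0
  -- move `z, z'` to `y, y'`
  obtain ⟨ρ, hρ0, hρ1, hρ2⟩ : ∃ ρ : Equiv.Perm (Fin (2 ^ m + 1)), ρ 0 = 0 ∧ ρ z = y ∧ ρ z' = y' := by
    set w := Equiv.swap z y z' with hw
    have hw1 : w ≠ 0 := by
      intro h3
      have h4 : z' = Equiv.swap z y w := by rw [hw, Equiv.swap_apply_self]
      rw [h3, Equiv.swap_apply_of_ne_of_ne hz0.symm hy0.symm] at h4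
      exact hz0' h4
    have hw2 : w ≠ y := by
      intro h3
      have h4 : z' = Equiv.swap z y w := by rw [hw, Equiv.swap_apply_self]
      rw [h3, Equiv.swap_apply_right] at h4
      exact hzz h4.symm
    refine ⟨Equiv.swap w y' * Equiv.swap z y, ?_, ?_, ?_⟩
    · rw [Equiv.Perm.mul_apply, Equiv.swap_apply_of_ne_of_ne hz0.symm hy0.symm,
        Equiv.swap_apply_of_ne_of_ne hw1.symm hy0'.symm]
    · rw [Equiv.Perm.mul_apply, Equiv.swap_apply_left, Equiv.swap_apply_of_ne_of_ne hw2.symm hyy]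
    · rw [Equiv.Perm.mul_apply, ← hw, Equiv.swap_apply_left]
  obtain ⟨g, hg⟩ := exists_blk N j ρ
  have hgM : g ∈ M := by
    refine mem_of_fix0 N hA hk hm hg fun i => ?_
    by_cases hi : i = j
    · subst hi; rw [Function.update_self, hρ0]
    · rw [Function.update_of_ne hi]; rfl
  have h2 := blk_conj N hg h1
  rw [Function.update_self, Equiv.Perm.one_apply] at h2
  refine ⟨_, (mem_normalizer_iff.1 (hC hgM) _).1 hc1, ?_⟩
  have e2 : ρ * Equiv.swap z z' * ρ⁻¹ = Equiv.swap y y' := by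
    rw [← hρ1, ← hρ2]
    exact (Equiv.swap_apply_apply ρ z z').symm
  rwa [e2] at h2

/-- a transposition inverting a 3-cycle -/
theorem three_cycle_inv {α : Type*} [Fintype α] [DecidableEq α] {ρ : Equiv.Perm α} (h : ρ.IsThreeCycle) :
    ∃ a b : α, a ≠ b ∧ ⁅Equiv.swap a b, ρ⁆ = ρ := by
  have h3 : ρ ^ 3 = 1 := by rw [← h.orderOf]; exact pow_orderOf_eq_one ρ
  obtain ⟨a, ha⟩ : ∃ a, ρ a ≠ a := by
    by_contra hcon
    push Not at hcon
    have h1 : ρ = 1 := Equiv.ext hcon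
    have h2 := h.orderOf
    rw [h1, orderOf_one] at h2
    omega
  have hp : ∀ x, ρ (ρ (ρ x)) = x := fun x => by
    have := congrArg (fun σ : Equiv.Perm α => σ x) h3
    simpa [pow_succ, Equiv.Perm.mul_apply] using this
  have hb : ρ (ρ a) ≠ ρ a := fun h1 => ha (ρ.injective h1)
  have hc : ρ (ρ a) ≠ a := by
    intro h1
    have h2 := hp a
    rw [h1] at h2
    exact ha h2
  have hsupp : ρ.support = {a, ρ a, ρ (ρ a)} := by
    symm
    apply Finset.eq_of_subset_of_card_le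
    · intro x hx
      rw [Equiv.Perm.mem_support]
      simp only [Finset.mem_insert, Finset.mem_singleton] at hx
      rcases hx with rfl | rfl | rfl
      · exact ha
      · exact hb
      · rw [hp]; exact Ne.symm hc
    · rw [h.card_support, Finset.card_eq_three.2 ⟨a, ρ a, ρ (ρ a), ha.symm, hc.symm, hb.symm, rfl⟩]
  refine ⟨a, ρ a, ha.symm, ?_⟩
  rw [commutatorElement_def, Equiv.swap_inv]
  have key : Equiv.swap a (ρ a) * ρ * Equiv.swap a (ρ a) = ρ⁻¹ := by
    ext x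
    rw [Equiv.Perm.mul_apply, Equiv.Perm.mul_apply, Equiv.Perm.eq_inv_iff_eq]
    by_cases hxa : x = a
    · subst hxa
      rw [Equiv.swap_apply_left, Equiv.swap_apply_of_ne_of_ne hc hb, hp]
    by_cases hxb : x = ρ a
    · subst hxb
      rw [Equiv.swap_apply_right, Equiv.swap_apply_right]
    rw [Equiv.swap_apply_of_ne_of_ne hxa hxb]
    by_cases hxc : x = ρ (ρ a)
    · subst hxc
      rw [hp, Equiv.swap_apply_left]
    have hx : x ∉ ρ.support := by
      rw [hsupp]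
      simp [hxa, hxb, hxc]
    rw [Equiv.Perm.notMem_support] at hx
    rw [hx, Equiv.swap_apply_of_ne_of_ne hxa hxb, hx]
  rw [key]
  have : ρ⁻¹ * ρ⁻¹ = ρ := by
    have h4 : ρ⁻¹ * ρ⁻¹ * ρ ^ 3 = ρ := by group
    rwa [h3, mul_one] at h4
  exact this

/-- the 3-cycles lie in the commutator -/
theorem three_cycle_mem [Finite Y] (hA : Abs Y V T M) (ho : odd Y V = ⊥) (hk : 0 < k) (hm : 2 ≤ m) {A C : Subgroup Y}
    (hAT : A ≤ (T : Subgroup Y)) (hoff : AOff V A) (hC : M ≤ normalizer (C : Set Y)) (hAC : A ≤ C)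
    (j : Fin k) {ρ : Equiv.Perm {x : Fin (2 ^ m + 1) // x ≠ 0}} (hρ : ρ.IsThreeCycle) :
    ∃ c ∈ ⁅C, OO Y ⊓ M⁆, Blk N c j (Equiv.Perm.ofSubtype ρ) := by
  obtain ⟨a, b, hab, h1⟩ := three_cycle_inv hρ
  obtain ⟨c, hc, hcact⟩ := swap_mem N hA ho hk hm hAT hoff hC hAC j (y := a) (y' := b)
    (fun h2 => hab (Subtype.ext h2)) a.2 b.2
  obtain ⟨g, hg⟩ := exists_blk N j (Equiv.Perm.ofSubtype ρ)
  have hgM : g ∈ M := by
    refine mem_of_fix0 N hA hk hm hg fun i => ?_
    by_cases hi : i = j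
    · subst hi
      rw [Function.update_self, Equiv.Perm.ofSubtype_apply_of_not_mem]
      exact fun h2 => h2 rfl
    · rw [Function.update_of_ne hi]; rfl
  have hg3 : g ^ 3 = 1 := by
    refine eq_one_of_acts N hA ho ?_
    have h2 := pow_acts hg 3
    have h3 : (fun i => Function.update (1 : Fin k → Equiv.Perm (Fin (2 ^ m + 1))) j (Equiv.Perm.ofSubtype ρ) i ^ 3) =
        fun _ => 1 := by
      funext i
      by_cases hi : i = j
      · subst hi
        rw [Function.update_self, ← map_pow, ← hρ.orderOf, pow_orderOf_eq_one, map_one]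
      · rw [Function.update_of_ne hi, Pi.one_apply, one_pow]
    rwa [h3] at h2
  have hgO : g ∈ OO Y := by
    refine mem_OO (Odd.of_dvd_nat (by decide : Odd 3) (orderOf_dvd_of_pow_eq_one hg3))
  refine ⟨⁅c, g⁆, commutator_mem_commutator hc (mem_inf.2 ⟨hgO, hgM⟩), ?_⟩
  have h2 := blk_mul N (blk_mul N (blk_mul N hcact hg) (blk_inv N hcact)) (blk_inv N hg)
  have h3 : Equiv.swap (a : Fin (2 ^ m + 1)) b * Equiv.Perm.ofSubtype ρ * (Equiv.swap (a : Fin (2 ^ m + 1)) b)⁻¹ *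
      (Equiv.Perm.ofSubtype ρ)⁻¹ = Equiv.Perm.ofSubtype ρ := by
    have h4 := congrArg Equiv.Perm.ofSubtype h1
    rw [commutatorElement_def, map_mul, map_mul, map_mul, map_inv, map_inv, Equiv.Perm.ofSubtype_swap_eq] at h4
    exact h4
  rw [h3] at h2
  exact h2

/-- **Lemma U for sums of even-subset modules** -/
theorem u_sym (N : AbsSym (T : Subgroup Y) V k m) [Finite Y] (hA : Abs Y V T M) (ho : odd Y V = ⊥) (hk : 0 < k)
    (hm : 2 ≤ m) {A C : Subgroup Y}
    (hAT : A ≤ (T : Subgroup Y)) (hoff : AOff V A) (hC : M ≤ normalizer (C : Set Y)) (hAC : A ≤ C) :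
    (T : Subgroup Y) ⊓ OO Y ≤ ⁅C, OO Y ⊓ M⁆ := by
  classical
  rintro t ⟨ht, htO⟩
  obtain ⟨τ, hτ⟩ := OO_le_EE N htO
  have hfix := N.fix0 t ht 1 τ hτ
  have hsign := sign_of_OO N hm htO hτ
  -- one block
  have key : ∀ j : Fin k, ∃ c ∈ ⁅C, OO Y ⊓ M⁆, Blk N c j (τ j) := by
    intro j
    let W : Subgroup (Equiv.Perm {x : Fin (2 ^ m + 1) // x ≠ 0}) :=
      { carrier := {ρ | ∃ c ∈ ⁅C, OO Y ⊓ M⁆, Blk N c j (Equiv.Perm.ofSubtype ρ)}
        one_mem' := ⟨1, one_mem _, by rw [map_one]; exact blk_one N⟩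
        mul_mem' := by
          rintro a b ⟨c, hc, h1⟩ ⟨d, hd, h2⟩
          exact ⟨c * d, mul_mem hc hd, by rw [map_mul]; exact blk_mul N h1 h2⟩
        inv_mem' := by
          rintro a ⟨c, hc, h1⟩
          exact ⟨c⁻¹, inv_mem hc, by rw [map_inv]; exact blk_inv N h1⟩ }
    have hW : alternatingGroup {x : Fin (2 ^ m + 1) // x ≠ 0} ≤ W := by
      rw [← Equiv.Perm.closure_three_cycles_eq_alternating, closure_le]
      intro ρ hρ
      exact three_cycle_mem N hA ho hk hm hAT hoff hC hAC j hρ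
    have hinv : ∀ x : Fin (2 ^ m + 1), x ≠ 0 ↔ τ j x ≠ 0 := by
      intro x
      rw [not_iff_not]
      constructor
      · rintro rfl; exact hfix j
      · intro h1
        exact (τ j).injective (h1.trans (hfix j).symm)
    have h1 : Equiv.Perm.ofSubtype ((τ j).subtypePerm (p := fun x => x ≠ 0) (fun x => (hinv x).symm)) = τ j := by
      refine Equiv.Perm.ofSubtype_subtypePerm _ ?_
      intro x hx h0
      rw [h0] at hx
      exact hx (hfix j)
    have h2 : (τ j).subtypePerm (p := fun x => x ≠ 0) (fun x => (hinv x).symm) ∈ W := by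
      apply hW
      rw [Equiv.Perm.mem_alternatingGroup]
      rw [← Equiv.Perm.sign_ofSubtype, h1]
      exact hsign j
    obtain ⟨c, hc, h3⟩ := h2
    rw [h1] at h3
    exact ⟨c, hc, h3⟩
  -- all blocks
  have hall : ∀ s : Finset (Fin k), ∃ c ∈ ⁅C, OO Y ⊓ M⁆, AActsSym N.e c 1 fun i => if i ∈ s then τ i else 1 := by
    intro s
    induction s using Finset.induction_on with
    | empty =>
      refine ⟨1, one_mem _, ?_⟩
      simpa using one_acts (Y := Y) (e := N.e)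
    | insert j s hj ih =>
      obtain ⟨c, hc, hcact⟩ := ih
      obtain ⟨d, hd, hdact⟩ := key j
      refine ⟨d * c, mul_mem hd hc, ?_⟩
      have h1 := mul_acts hdact hcact
      have e : (fun i => Function.update (1 : Fin k → Equiv.Perm (Fin (2 ^ m + 1))) j (τ j) i *
          (if i ∈ s then τ i else 1)) = fun i => if i ∈ insert j s then τ i else 1 := by
        funext i
        by_cases hi : i = j
        · subst hi
          rw [Function.update_self, if_neg hj, if_pos (Finset.mem_insert_self _ _), mul_one]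
        · rw [Function.update_of_ne hi, Pi.one_apply, one_mul]
          simp only [Finset.mem_insert, hi, false_or]
      rwa [e] at h1
  obtain ⟨c, hc, hcact⟩ := hall Finset.univ
  have h1 : AActsSym N.e c 1 τ := by simpa using hcact
  rw [elt_unique N hA ho hτ h1]
  exact hc

end

end Cfsg.Agent.QrcE.USym
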