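import Cfsg.Agent.QrcE.UNat
import Cfsg.Agent.QrcE.USym

/-!
# S1824: LEMMA U

`X` finite, `T` a Sylow 2-subgroup in a unique maximal subgroup `M`, `F` an irreducible module on which `O²(X)` is
nontrivial, `A ≤ T` an offender on `F`, `C ≥ A` normalised by `M`.  Then `T ∩ O²(X) ≤ [C, O²(X) ∩ M] C_X(F)`.
-/

set_option autoImplicit false
set_option linter.unusedVariables false
set_option linter.unusedSectionVars false
set_option linter.style.haveILetI false

namespace Cfsg.Agent.QrcE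

open Subgroup Cfsg Cfsg.Agent.MinSimple.MinParabolic Cfsg.Agent.Omega.FFBr
open Cfsg.Agent.ClassTwoFusion.Quad (cv mem_cv cv_anti)
open scoped commutatorElement

universe u

variable {X : Type u} [Group X]

/-- `O²(X / K)` -/
theorem OO_quo [Finite X] (K : Subgroup X) [K.Normal] : OO (X ⧸ K) = (OO X).map (QuotientGroup.mk' K) := by
  apply le_antisymm
  · obtain ⟨T⟩ : Nonempty (Sylow 2 X) := inferInstance
    haveI : ((OO X).map (QuotientGroup.mk' K)).Normal :=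
      OO_normal.map _ (QuotientGroup.mk'_surjective K)
    refine OO_le_of_sup (sylQ T K).isPGroup' ?_
    rw [sylQ_coe, ← Subgroup.map_sup, OO_sup T, map_top_of_surjective _ (QuotientGroup.mk'_surjective K)]
  · rw [map_le_iff_le_comap]
    refine OO_le fun x hx => ?_
    refine mem_OO (Odd.of_dvd_nat hx ?_)
    exact orderOf_map_dvd _ x

variable {F : Type u} [Group F] [MulDistribMulAction X F]

theorem IrrMod.odd_eq [Finite X] (h : IrrMod X F) :
    letI := quoAct X F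
    odd (X ⧸ ker X F) F = ⊥ := by
  letI := quoAct X F
  refine (h.irr (odd (X ⧸ ker X F) F) fun x w hw =>
    Cfsg.Agent.Omega.NO3b.Exit.TenFF.odd_smul (X := X ⧸ ker X F) hw (QuotientGroup.mk' (ker X F) x)).resolve_right ?_
  intro h1
  obtain ⟨x, hx, v, hv⟩ := h.nt
  apply hv
  have h2 : v ∈ odd (X ⧸ ker X F) F := by rw [h1]; trivial
  exact h2 (QuotientGroup.mk' (ker X F) x) (Odd.of_dvd_nat hx (orderOf_map_dvd _ x))

/-- **LEMMA U** -/
theorem lemU (hFF : AStmt.{u}) [Finite X] [Finite F] {T : Sylow 2 X} {M : Subgroup X}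
    (hm : IsMin (T : Subgroup X) M) (h : IrrMod X F) {A C : Subgroup X} (hAT : A ≤ (T : Subgroup X))
    (hA : ActsElem F A) (hne : ¬ A ≤ ker X F) (hle : (cv F (A : Set X)).index ≤ (ker X F).relIndex A)
    (hC : M ≤ normalizer (C : Set X)) (hAC : A ≤ C) :
    (T : Subgroup X) ⊓ OO X ≤ ⁅C, OO X ⊓ M⁆ ⊔ ker X F := by
  letI := quoAct X F
  set π := QuotientGroup.mk' (ker X F) with hπ
  have hKM : ker X F ≤ M := le_sup_left.trans (h.ker_sup_le hm)
  have hoff : AOff F (A.map π) := aOff_map hA hne hle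
  have habs := h.abs_quo hm
  have hodd := h.odd_eq
  have hC' : M.map π ≤ normalizer ((C.map π : Subgroup (X ⧸ ker X F)) : Set (X ⧸ ker X F)) :=
    (map_mono hC).trans (le_normalizer_map π)
  have hAT' : A.map π ≤ ((sylQ T (ker X F) : Sylow 2 (X ⧸ ker X F)) : Subgroup (X ⧸ ker X F)) := map_mono hAT
  have key : ((sylQ T (ker X F) : Sylow 2 (X ⧸ ker X F)) : Subgroup (X ⧸ ker X F)) ⊓ OO (X ⧸ ker X F) ≤
      ⁅C.map π, OO (X ⧸ ker X F) ⊓ M.map π⁆ := by
    rcases (hFF (X ⧸ ker X F) F (sylQ T (ker X F)) _ habs ⟨_, hoff⟩).2 with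
      ⟨E, _, _, _, k, hk, ⟨N⟩⟩ | ⟨k, m, hk, hm2, ⟨N⟩⟩
    · exact UNat.u_nat N habs hodd hk hAT' hoff hC' (map_mono hAC)
    · exact USym.u_sym N habs hodd hk hm2 hAT' hoff hC' (map_mono hAC)
  have hinf : OO (X ⧸ ker X F) ⊓ M.map π ≤ (OO X ⊓ M).map π := by
    rintro y ⟨h1, m, hm1, rfl⟩
    rw [OO_quo] at h1
    obtain ⟨l, hl, hlm⟩ := h1
    have h2 : m⁻¹ * l ∈ ker X F := QuotientGroup.eq.1 hlm.symm
    have h3 : l ∈ M := by
      have h4 : l = m * (m⁻¹ * l) := by group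
      rw [h4]
      exact mul_mem hm1 (hKM h2)
    exact ⟨l, ⟨hl, h3⟩, hlm⟩
  rintro t ⟨ht, htO⟩
  have h1 : π t ∈ ⁅C.map π, OO (X ⧸ ker X F) ⊓ M.map π⁆ := by
    refine key ⟨⟨t, ht, rfl⟩, ?_⟩
    rw [OO_quo]
    exact ⟨t, htO, rfl⟩
  have h2 : π t ∈ (⁅C, OO X ⊓ M⁆).map π := by
    rw [map_commutator]
    exact commutator_mono le_rfl hinf h1
  have h3 : t ∈ ((⁅C, OO X ⊓ M⁆).map π).comap π := h2
  rwa [comap_map_eq, hπ, QuotientGroup.ker_mk'] at h3

end Cfsg.Agent.QrcE
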