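import Cfsg.Agent.QrcE.Irr
import Cfsg.Agent.Omega.NO3b.Exit.TenFF

/-!
# S1824: `T ∩ O²(X) ≤ [C, O²(X) ∩ M]` when the module is a sum of natural `SL₂(F)`-modules

`C` is a subgroup normalised by `M` which contains an offender `A ≤ T`.
-/

set_option autoImplicit false
set_option linter.unusedVariables false
set_option linter.unusedSectionVars false
set_option linter.style.haveILetI false

namespace Cfsg.Agent.QrcE.UNat

open Subgroup Cfsg Cfsg.Agent.Lib.SL2Mat Cfsg.Agent.Omega.FFBr Cfsg.Agent.QrcE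
open Cfsg.Agent.Omega.NatPair (ap ap_mul ap_one ap_inv_ap ap_zero' ap_one' ap_inj)
open Cfsg.Agent.Omega.NO3b.Exit.TenFF (nat_one nat_inv nat_br aacts_mul aacts_inv nat_unique)
open Cfsg.Agent.ClassTwoFusion.Quad (cv mem_cv cv_anti)
open scoped commutatorElement

universe u

variable {Y V : Type u} [Group Y] [Group V] [MulDistribMulAction Y V]

section

variable {T : Sylow 2 Y} {M : Subgroup Y} {k : ℕ} {F : Type} [Field F]

theorem acts_of_bot (ho : odd Y V = ⊥) {e : V → Fin k → Fin 2 → F} {g : Y}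
    {A : Fin k → Matrix.SpecialLinearGroup (Fin 2) F} (h : ∀ v i, e (g • v) i = ap (A i) (e v i)) : AActs e g A :=
  ⟨h, fun d hd => by rw [ho, mem_bot] at hd; rw [hd, smul_one]⟩

/-- `A` is determined -/
theorem acts_unique (N : AbsNat F (T : Subgroup Y) V k) {g : Y} {A B : Fin k → Matrix.SpecialLinearGroup (Fin 2) F}
    (h : AActs N.e g A) (h' : AActs N.e g B) : A = B := by
  funext i
  refine ap_inj fun x => ?_
  obtain ⟨v, hv⟩ := N.surj fun _ => x
  have h1 := h.1 v i
  rw [h'.1 v i, hv] at h1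
  exact h1.symm

/-- the element is determined -/
theorem elt_unique (hA : Abs Y V T M) (N : AbsNat F (T : Subgroup Y) V k) {g h : Y}
    {A : Fin k → Matrix.SpecialLinearGroup (Fin 2) F} (hg : AActs N.e g A) (hh : AActs N.e h A) : g = h := by
  have h1 := aacts_mul hg (aacts_inv hh)
  have h2 : (fun i => A i * (A i)⁻¹) = fun _ => (1 : Matrix.SpecialLinearGroup (Fin 2) F) := by
    funext i; exact mul_inv_cancel _
  rw [h2] at h1
  exact mul_inv_eq_one.1 (nat_unique hA N h1)

theorem aacts_one {e : V → Fin k → Fin 2 → F} : AActs e (1 : Y) fun _ => 1 :=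
  ⟨fun v i => by rw [one_smul, ap_one], fun d _ => one_smul _ d⟩

theorem aacts_pow {e : V → Fin k → Fin 2 → F} {g : Y} {A : Fin k → Matrix.SpecialLinearGroup (Fin 2) F}
    (h : AActs e g A) (n : ℕ) : AActs e (g ^ n) fun i => A i ^ n := by
  induction n with
  | zero => simpa using aacts_one (Y := Y) (e := e)
  | succ n ih =>
    simp only [pow_succ]
    exact aacts_mul ih h

variable (hA : Abs Y V T M) (N : AbsNat F (T : Subgroup Y) V k) (ho : odd Y V = ⊥)

/-- the group `SL₂(F)^k` -/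
def EE (N : AbsNat F (T : Subgroup Y) V k) : Subgroup Y where
  carrier := {g | ∃ A, AActs N.e g A}
  one_mem' := ⟨_, aacts_one⟩
  mul_mem' := by
    rintro a b ⟨A, hA⟩ ⟨B, hB⟩
    exact ⟨_, aacts_mul hA hB⟩
  inv_mem' := by
    rintro a ⟨A, hA⟩
    exact ⟨_, aacts_inv hA⟩

include ho in
theorem EE_normal : (EE N).Normal := by
  refine ⟨?_⟩
  rintro h ⟨A, hA⟩ g
  obtain ⟨B, hB⟩ := N.norm g h A hA.1
  exact ⟨B, acts_of_bot ho hB⟩

include ho in
theorem EE_sup : EE N ⊔ (T : Subgroup Y) = ⊤ :=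
  N.gen _ le_sup_right fun h A hA => mem_sup_left ⟨A, hA⟩

include ho in
theorem OO_le_EE : OO Y ≤ EE N := by
  haveI := EE_normal N ho
  exact OO_le_of_sup T.isPGroup' (EE_sup N ho)

/-- the elements of `SL₂(F)^k` which permute the lines -/
theorem line_acts {g : Y} {A : Fin k → Matrix.SpecialLinearGroup (Fin 2) F} (hg : AActs N.e g A)
    {σ : Equiv.Perm (Fin k)} (hσ : ∀ v i, N.e (g • v) (σ i) 1 = 0 ↔ N.e v i 1 = 0) (i : Fin k) :
    ent (A i) 1 0 = 0 := by
  classical
  have hσi : σ i = i := by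
    by_contra hne
    have hdet := det_eq (A (σ i))
    have key : ∀ x : Fin 2 → F, ent (A (σ i)) 1 0 * x 0 + ent (A (σ i)) 1 1 * x 1 = 0 := by
      intro x
      obtain ⟨v, hv⟩ := N.surj (Function.update (fun _ => ![1, 0]) (σ i) x)
      have h1 : N.e v i 1 = 0 := by
        rw [hv, Function.update_of_ne (Ne.symm hne)]
        rfl
      have h2 := (hσ v i).2 h1
      rw [hg.1, hv, Function.update_self, ap_one'] at h2
      exact h2
    have h1 := key ![1, 0]
    have h2 := key ![0, 1]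
    simp only [Matrix.cons_val_zero, Matrix.cons_val_one, mul_one, mul_zero, add_zero, zero_add] at h1 h2
    rw [h1, h2] at hdet
    simp at hdet
  obtain ⟨v, hv⟩ := N.surj fun _ => ![1, 0]
  have h1 : N.e v i 1 = 0 := by rw [hv]; rfl
  have h2 := (hσ v i).2 h1
  rw [hσi, hg.1, hv, ap_one'] at h2
  simpa using h2

theorem ent_pow_00 (A : Matrix.SpecialLinearGroup (Fin 2) F) (h : ent A 1 0 = 0) (n : ℕ) :
    ent (A ^ n) 1 0 = 0 ∧ ent (A ^ n) 0 0 = ent A 0 0 ^ n := by
  induction n with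
  | zero => simp
  | succ n ih =>
    rw [pow_succ, ent_mul, ent_mul, h, ih.1, ih.2]
    constructor <;> ring

/-- a 2-element which permutes the lines is unipotent -/
theorem up_of_line [CharP F 2] {g : Y} {A : Fin k → Matrix.SpecialLinearGroup (Fin 2) F}
    (hg : AActs N.e g A) {n : ℕ} (hn : g ^ 2 ^ n = 1)
    {σ : Equiv.Perm (Fin k)} (hσ : ∀ v i, N.e (g • v) (σ i) 1 = 0 ↔ N.e v i 1 = 0) (i : Fin k) :
    A i = up (ent (A i) 0 1) := by
  have h0 := line_acts N hg hσ i
  have h1 := aacts_pow hg (2 ^ n)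
  rw [hn] at h1
  have h2 : A i ^ 2 ^ n = 1 := congrFun (acts_unique N h1 aacts_one) i
  have h3 : ent (A i) 0 0 ^ 2 ^ n = 1 := by
    rw [← (ent_pow_00 (A i) h0 (2 ^ n)).2, h2]; rfl
  have h4 : ent (A i) 0 0 = 1 := by
    have h5 : (ent (A i) 0 0 - 1) ^ 2 ^ n = 0 := by
      rw [sub_pow_char_pow, h3, one_pow, sub_self]
    exact sub_eq_zero.1 (pow_eq_zero_iff (by positivity) |>.1 h5)
  have h5 := det_eq (A i)
  rw [h0, h4, mul_zero, sub_zero, one_mul] at h5
  refine ext_ent ?_ ?_ ?_ ?_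
  · rw [up_00, h4]
  · rw [up_01]
  · rw [up_10, h0]
  · rw [up_11, h5]

include ho in
theorem inf_OO_up [CharP F 2] [Finite Y] {t : Y} (ht : t ∈ (T : Subgroup Y)) (htO : t ∈ OO Y) :
    ∃ b : Fin k → F, AActs N.e t fun i => up (b i) := by
  obtain ⟨A, hA⟩ := OO_le_EE N ho htO
  obtain ⟨σ, hσ⟩ := N.line t ht
  obtain ⟨n, hn⟩ := T.isPGroup' ⟨t, ht⟩
  have hn' : t ^ 2 ^ n = 1 := congrArg Subtype.val hn
  refine ⟨fun i => ent (A i) 0 1, ?_⟩
  have : (fun i => up (ent (A i) 0 1)) = A := by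
    funext i
    exact (up_of_line N hA hn' hσ i).symm
  rw [this]
  exact hA

/-- the elements which permute the lines lie in `M` -/
theorem mem_of_line [Finite Y] (hA : Abs Y V T M) (hk : 0 < k) {g : Y}
    (hg : ∃ σ : Equiv.Perm (Fin k), ∀ v i, N.e (g • v) (σ i) 1 = 0 ↔ N.e v i 1 = 0) : g ∈ M := by
  let B : Subgroup Y :=
    { carrier := {g | ∃ σ : Equiv.Perm (Fin k), ∀ v i, N.e (g • v) (σ i) 1 = 0 ↔ N.e v i 1 = 0}
      one_mem' := ⟨1, fun v i => by rw [one_smul]; rfl⟩
      mul_mem' := by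
        rintro a b ⟨σ, hσ⟩ ⟨τ, hτ⟩
        refine ⟨σ * τ, fun v i => ?_⟩
        rw [mul_smul, Equiv.Perm.mul_apply, hσ, hτ]
      inv_mem' := by
        rintro a ⟨σ, hσ⟩
        refine ⟨σ⁻¹, fun v i => ?_⟩
        have h1 := hσ (a⁻¹ • v) (σ⁻¹ i)
        rw [smul_inv_smul, show σ (σ⁻¹ i) = i from σ.apply_symm_apply i] at h1
        exact h1.symm }
  have hB : B ≠ ⊤ := by
    intro h1
    classical
    obtain ⟨g, hg⟩ := N.lift fun _ => lo 1
    obtain ⟨σ, hσ⟩ : g ∈ B := by rw [h1]; trivial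
    set i : Fin k := ⟨0, hk⟩
    obtain ⟨v, hv⟩ := N.surj fun _ => ![1, 0]
    have h2 : N.e v i 1 = 0 := by rw [hv]; rfl
    have h3 := (hσ v i).2 h2
    rw [hg.1, hv, ap_one'] at h3
    simp at h3
  exact (hA.max B (fun t ht => N.line t ht)).resolve_right hB hg

/-- `C` contains all unipotent elements -/
theorem up_mem [CharP F 2] [Finite Y] (hA : Abs Y V T M) (ho : odd Y V = ⊥) {A C : Subgroup Y}
    (hAT : A ≤ (T : Subgroup Y)) (hoff : AOff V A) (hC : M ≤ normalizer (C : Set Y)) (hAC : A ≤ C)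
    (b : Fin k → F) : ∃ c ∈ C, AActs N.e c fun i => up (b i) := by
  classical
  obtain ⟨I, hI1, hI2⟩ := N.off A hAT hoff
  -- `I` is nonempty
  obtain ⟨i₀, hi₀⟩ : I.Nonempty := by
    by_contra hcon
    rw [Set.not_nonempty_iff_eq_empty] at hcon
    apply hoff.ne
    rw [eq_bot_iff]
    intro a ha
    obtain ⟨b, hb, hab⟩ := hI1 a ha
    have h1 : (fun i => up (b i)) = fun _ => (1 : Matrix.SpecialLinearGroup (Fin 2) F) := by
      funext i
      rw [hb i (by rw [hcon]; exact Set.notMem_empty _), up_zero]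
    rw [h1] at hab
    exact mem_bot.2 (nat_unique hA N hab)
  -- one coordinate
  have key : ∀ (j : Fin k) (x : F), ∃ c ∈ C, AActs N.e c fun i => up ((Pi.single j x : Fin k → F) i) := by
    intro j x
    obtain ⟨t, ht, htj⟩ := N.trans i₀ j
    have hTn : t ∈ normalizer (C : Set Y) := hC (hA.TM ht)
    set A' : Subgroup Y := A.map (MulAut.conj t).toMonoidHom with hA'
    have hA'T : A' ≤ (T : Subgroup Y) := by
      rintro _ ⟨a, ha, rfl⟩
      exact mul_mem (mul_mem ht (hAT ha)) (inv_mem ht)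
    have hA'C : A' ≤ C := by
      rintro _ ⟨a, ha, rfl⟩
      exact (mem_normalizer_iff.1 hTn a).1 (hAC ha)
    have hA'o : AOff V A' := by
      refine ⟨?_, ?_, ?_, ?_⟩
      · rintro _ ⟨a, ha, rfl⟩ _ ⟨b, hb, rfl⟩
        rw [← map_mul, ← map_mul, hoff.comm a ha b hb]
      · rintro _ ⟨a, ha, rfl⟩
        rw [← map_mul, hoff.sq a ha, map_one]
      · intro h1
        apply hoff.ne
        rwa [hA', Subgroup.map_eq_bot_iff_of_injective _ (MulAut.conj t).injective] at h1
      · have h1 : (cv V (A' : Set Y)).index = (cv V (A : Set Y)).index :=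
          Cfsg.Agent.ClassTwoFusion.Quad.QData.index_cv_map_conj A t
        have h2 : Nat.card A' = Nat.card A := card_map_of_injective (MulAut.conj t).injective
        rw [h1, h2]
        exact hoff.le
    obtain ⟨J, hJ1, hJ2⟩ := N.off A' hA'T hA'o
    have hj : j ∈ J := by
      by_contra hj
      obtain ⟨a, ha, haact⟩ := hI2 (Pi.single i₀ 1) (fun i hi => by
        rw [Pi.single_eq_of_ne]; rintro rfl; exact hi hi₀)
      obtain ⟨b', hb', hact'⟩ := hJ1 (t * a * t⁻¹) ⟨a, ha, rfl⟩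
      obtain ⟨v, hv⟩ := N.surj fun _ => ![0, 1]
      have h1 : N.e ((t * a * t⁻¹) • t • v) j = ap (up (b' j)) (N.e (t • v) j) := hact'.1 (t • v) j
      rw [hb' j hj, up_zero, ap_one, ← mul_smul, inv_mul_cancel_right, mul_smul] at h1
      have h2 : N.e (t • (a • v * v⁻¹)) j = 0 := by
        rw [smul_mul', smul_inv', nat_br, Pi.sub_apply, h1, sub_self]
      rw [htj, nat_br, Pi.sub_apply, haact.1, hv, sub_eq_zero] at h2
      have h3 := congrFun h2 0
      rw [ap_zero'] at h3
      simp at h3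
    obtain ⟨c, hc, hcact⟩ := hJ2 (Pi.single j x) (fun i hi => by
      rw [Pi.single_eq_of_ne]; rintro rfl; exact hi hj)
    exact ⟨c, hA'C hc, hcact⟩
  -- sums
  have hsum : ∀ s : Finset (Fin k), ∃ c ∈ C, AActs N.e c fun i => up ((∑ j ∈ s, (Pi.single j (b j) : Fin k → F)) i) := by
    intro s
    induction s using Finset.induction_on with
    | empty =>
      refine ⟨1, one_mem _, ?_⟩
      have : (fun i : Fin k => up ((∑ j ∈ (∅ : Finset (Fin k)), (Pi.single j (b j) : Fin k → F)) i)) =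
          fun _ => (1 : Matrix.SpecialLinearGroup (Fin 2) F) := by
        funext i
        rw [Finset.sum_empty, Pi.zero_apply, up_zero]
      rw [this]
      exact aacts_one
    | insert j s hj ih =>
      obtain ⟨c, hc, hcact⟩ := ih
      obtain ⟨d, hd, hdact⟩ := key j (b j)
      refine ⟨d * c, mul_mem hd hc, ?_⟩
      have := aacts_mul hdact hcact
      have e : (fun i : Fin k => up ((∑ j ∈ insert j s, (Pi.single j (b j) : Fin k → F)) i)) =
          fun i => up ((Pi.single j (b j) : Fin k → F) i) * up ((∑ j ∈ s, (Pi.single j (b j) : Fin k → F)) i) := by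
        funext i
        rw [Finset.sum_insert hj, Pi.add_apply, up_mul]
      rw [e]
      exact this
  obtain ⟨c, hc, hcact⟩ := hsum Finset.univ
  refine ⟨c, hc, ?_⟩
  rwa [Finset.univ_sum_single] at hcact

/-- commutator of a unipotent and a diagonal matrix -/
theorem up_dg (b l : F) (hl : l ≠ 0) : up b * dg l hl * (up b)⁻¹ * (dg l hl)⁻¹ = up (b * (1 - l ^ 2)) := by
  have h2 : (dg l hl)⁻¹ = dg l⁻¹ (inv_ne_zero hl) := by
    refine inv_eq_of_mul_eq_one_right (ext_ent ?_ ?_ ?_ ?_) <;> rw [ent_mul] <;> simp [hl]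
  rw [up_inv, h2]
  refine ext_ent ?_ ?_ ?_ ?_
  · simp [ent_mul, hl]
  · simp only [ent_mul, up_00, up_01, up_10, up_11, dg_00, dg_01, dg_10, dg_11]
    field_simp
    ring
  · simp [ent_mul]
  · simp [ent_mul, hl]

/-! ### `F` of order two -/

/-- the sign of an element of `SL₂(2) ≅ S₃` -/
def sg (A : Matrix.SpecialLinearGroup (Fin 2) (ZMod 2)) : ZMod 2 :=
  A.1 0 0 + A.1 0 1 + A.1 1 0 + A.1 1 1 + A.1 0 1 * A.1 1 0

theorem sg_mul : ∀ A B : Matrix.SpecialLinearGroup (Fin 2) (ZMod 2), sg (A * B) = sg A + sg B := by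
  have key : ∀ a b c d a' b' c' d' : ZMod 2, a * d - b * c = 1 → a' * d' - b' * c' = 1 →
      (a * a' + b * c') + (a * b' + b * d') + (c * a' + d * c') + (c * b' + d * d') +
        (a * b' + b * d') * (c * a' + d * c') =
      (a + b + c + d + b * c) + (a' + b' + c' + d' + b' * c') := by decide
  intro A B
  have hA := det_eq A
  have hB := det_eq B
  have h := key _ _ _ _ _ _ _ _ hA hB
  have e : ∀ i j, (A * B).1 i j = ent A i 0 * ent B 0 j + ent A i 1 * ent B 1 j := fun i j => ent_mul A B i j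
  unfold sg
  rw [e, e, e, e]
  exact h

theorem sg_one : sg 1 = 0 := by decide

theorem sg_pow (A : Matrix.SpecialLinearGroup (Fin 2) (ZMod 2)) (n : ℕ) : sg (A ^ n) = n * sg A := by
  induction n with
  | zero => simp [sg_one]
  | succ n ih => rw [pow_succ, sg_mul, ih]; push_cast; ring

theorem sg_odd (A : Matrix.SpecialLinearGroup (Fin 2) (ZMod 2)) {n : ℕ} (hn : Odd n) (h : A ^ n = 1) : sg A = 0 := by
  have h1 := sg_pow A n
  rw [h, sg_one] at h1
  obtain ⟨m, rfl⟩ := hn
  have h2 : ((2 * m + 1 : ℕ) : ZMod 2) = 1 := by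
    push_cast
    have : (2 : ZMod 2) = 0 := by decide
    rw [this]; ring
  rw [h2, one_mul] at h1
  exact h1.symm

theorem two_case [Finite Y] (hA : Abs Y V T M) (ho : odd Y V = ⊥) (φ : F →+* ZMod 2)
    {t : Y} (htO : t ∈ OO Y) {b : Fin k → F} (hb : AActs N.e t fun i => up (b i)) (i : Fin k) : b i = 0 := by
  let E2 : Subgroup Y :=
    { carrier := {g | ∃ A, AActs N.e g A ∧ ∀ i, sg (Matrix.SpecialLinearGroup.map φ (A i)) = 0}
      one_mem' := ⟨_, aacts_one, fun i => by rw [map_one, sg_one]⟩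
      mul_mem' := by
        rintro g h ⟨A, hA, hA'⟩ ⟨B, hB, hB'⟩
        refine ⟨_, aacts_mul hA hB, fun i => ?_⟩
        rw [map_mul, sg_mul, hA', hB', add_zero]
      inv_mem' := by
        rintro g ⟨A, hA, hA'⟩
        refine ⟨_, aacts_inv hA, fun i => ?_⟩
        have h1 := sg_mul (Matrix.SpecialLinearGroup.map φ (A i)) (Matrix.SpecialLinearGroup.map φ (A i)⁻¹)
        rw [← map_mul, mul_inv_cancel, map_one, sg_one, hA', zero_add] at h1
        exact h1.symm }
  have hle : OO Y ≤ E2 := by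
    refine OO_le fun x hx => ?_
    obtain ⟨A, hxA⟩ := OO_le_EE N ho (mem_OO hx)
    refine ⟨A, hxA, fun i => ?_⟩
    refine sg_odd _ hx ?_
    rw [← map_pow]
    have h1 := aacts_pow hxA (orderOf x)
    rw [pow_orderOf_eq_one] at h1
    have h2 : A i ^ orderOf x = 1 := congrFun (acts_unique N h1 aacts_one) i
    rw [h2, map_one]
  obtain ⟨A, hA1, hA2⟩ := hle htO
  have h1 : A i = up (b i) := congrFun (acts_unique N hA1 hb) i
  have h2 := hA2 i
  rw [h1] at h2
  have h3 : φ (b i) = 0 := by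
    have e : sg (Matrix.SpecialLinearGroup.map φ (up (b i))) = φ 1 + φ (b i) + φ 0 + φ 1 + φ (b i) * φ 0 := rfl
    rw [e, map_one, map_zero, mul_zero, add_zero, add_zero] at h2
    have h4 : ∀ x : ZMod 2, 1 + x + 1 = 0 → x = 0 := by decide
    exact h4 _ h2
  exact (map_eq_zero φ).1 h3

/-- **Lemma U for sums of natural modules** -/
theorem u_nat (N : AbsNat F (T : Subgroup Y) V k) [Finite F] [CharP F 2] [Finite Y] (hA : Abs Y V T M)
    (ho : odd Y V = ⊥) (hk : 0 < k)
    {A C : Subgroup Y}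
    (hAT : A ≤ (T : Subgroup Y)) (hoff : AOff V A) (hC : M ≤ normalizer (C : Set Y)) (hAC : A ≤ C) :
    (T : Subgroup Y) ⊓ OO Y ≤ ⁅C, OO Y ⊓ M⁆ := by
  classical
  rintro t ⟨ht, htO⟩
  obtain ⟨b, hb⟩ := inf_OO_up N ho ht htO
  by_cases hF : ∃ l : F, l ≠ 0 ∧ l ≠ 1
  · obtain ⟨l, hl0, hl1⟩ := hF
    have hl2 : 1 - l ^ 2 ≠ 0 := by
      intro h1
      have h2 : (l - 1) ^ 2 = 0 := by
        rw [sub_pow_char, one_pow]
        rw [sub_eq_zero] at h1 ⊢
        exact h1.symm
      exact hl1 (sub_eq_zero.1 (pow_eq_zero_iff (by norm_num) |>.1 h2))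
    obtain ⟨g, hg⟩ := N.lift fun _ => dg l hl0
    -- `g` has odd order
    have hgodd : Odd (orderOf g) := by
      have h1 : l ^ (Nat.card F - 1) = 1 := by
        haveI := Fintype.ofFinite F
        rw [Nat.card_eq_fintype_card]
        exact FiniteField.pow_card_sub_one_eq_one l hl0
      have h2 : ∀ n : ℕ, dg l hl0 ^ n = dg (l ^ n) (pow_ne_zero n hl0) := by
        intro n
        induction n with
        | zero => refine ext_ent ?_ ?_ ?_ ?_ <;> simp
        | succ n ih =>
          rw [pow_succ, ih]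
          refine ext_ent ?_ ?_ ?_ ?_ <;> simp [ent_mul, pow_succ, mul_comm]
      have h3 : g ^ (Nat.card F - 1) = 1 := by
        refine nat_unique hA N ?_
        have h4 := aacts_pow hg (Nat.card F - 1)
        have h5 : (fun _ : Fin k => dg l hl0 ^ (Nat.card F - 1)) = fun _ => 1 := by
          funext i
          rw [h2]
          refine ext_ent ?_ ?_ ?_ ?_ <;> simp [h1]
        rwa [h5] at h4
      refine Odd.of_dvd_nat ?_ (orderOf_dvd_of_pow_eq_one h3)
      obtain ⟨n, hn⟩ : ∃ n : ℕ, Nat.card F = 2 ^ n ∧ n ≠ 0 := by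
        haveI := Fintype.ofFinite F
        obtain ⟨n, -, hn⟩ := FiniteField.card F 2
        exact ⟨n, by rw [Nat.card_eq_fintype_card]; exact hn, n.2.ne'⟩
      rw [hn.1]
      have h6 : Even (2 ^ n) := (Nat.even_pow.2 ⟨even_two, hn.2⟩)
      have h7 : 0 < 2 ^ n := by positivity
      exact Nat.Even.sub_odd h7 h6 odd_one
    have hgM : g ∈ M := by
      refine mem_of_line N hA hk ⟨1, fun v i => ?_⟩
      rw [Equiv.Perm.one_apply, hg.1, ap_one']
      simp [hl0]
    obtain ⟨c, hc, hcact⟩ := up_mem N hA ho hAT hoff hC hAC (fun i => b i * (1 - l ^ 2)⁻¹)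
    have h1 := aacts_mul (aacts_mul (aacts_mul hcact hg) (aacts_inv hcact)) (aacts_inv hg)
    have h2 : (fun i => up (b i * (1 - l ^ 2)⁻¹) * dg l hl0 * (up (b i * (1 - l ^ 2)⁻¹))⁻¹ * (dg l hl0)⁻¹) =
        fun i => up (b i) := by
      funext i
      rw [up_dg, mul_assoc, inv_mul_cancel₀ hl2, mul_one]
    rw [h2] at h1
    have h3 : t = ⁅c, g⁆ := elt_unique hA N hb h1
    rw [h3]
    exact commutator_mem_commutator hc (mem_inf.2 ⟨mem_OO hgodd, hgM⟩)
  · -- `F` has two elements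
    push Not at hF
    haveI := Fintype.ofFinite F
    have hcard : Fintype.card F = 2 := by
      have h1 : (Finset.univ : Finset F) = {0, 1} := by
        ext x
        simp only [Finset.mem_univ, Finset.mem_insert, Finset.mem_singleton, true_iff]
        by_cases hx : x = 0
        · exact Or.inl hx
        · exact Or.inr (hF x hx)
      rw [← Finset.card_univ, h1, Finset.card_pair zero_ne_one]
    let φ : F →+* ZMod 2 := ((ZMod.ringEquivOfPrime F Nat.prime_two hcard).symm : F →+* ZMod 2)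
    have h1 : t = 1 := by
      refine nat_unique hA N ?_
      have h2 : (fun i => up (b i)) = fun _ => (1 : Matrix.SpecialLinearGroup (Fin 2) F) := by
        funext i
        rw [two_case N hA ho φ htO hb i, up_zero]
      rwa [h2] at hb
    rw [h1]
    exact one_mem _

end

end Cfsg.Agent.QrcE.UNat
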